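import Cfsg.Agent.H3.Geometry
import Cfsg.Agent.H98.HermStd

/-!
Eichler elements of `SU n` as a total function, their laws, and generation facts used for the minimal
index of the unitary groups.
-/

set_option autoImplicit false

namespace Cfsg.Agent.H2.MinU

open Matrix

variable {F : Type*} [Field F] {q n : ℕ}

local notation "⟪" u ", " v "⟫" => Cfsg.hermForm _ F q u v

/-- The action on vectors. -/
abbrev act (g : Cfsg.SU n F q) (x : Fin n → F) : Fin n → F := (g.1 : Matrix (Fin n) (Fin n) F) *ᵥ x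

lemma act_mul (g h : Cfsg.SU n F q) (x : Fin n → F) : act (g * h) x = act g (act h x) := by
  simp [act, Matrix.mulVec_mulVec]

lemma act_one (x : Fin n → F) : act (1 : Cfsg.SU n F q) x = x := by simp [act]

lemma act_inv_act (g : Cfsg.SU n F q) (x : Fin n → F) : act g⁻¹ (act g x) = x := by
  rw [← act_mul, inv_mul_cancel, act_one]

lemma act_act_inv (g : Cfsg.SU n F q) (x : Fin n → F) : act g (act g⁻¹ x) = x := by
  rw [← act_mul, mul_inv_cancel, act_one]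

lemma act_injective (g : Cfsg.SU n F q) : Function.Injective (act g) :=
  fun x y h => by rw [← act_inv_act g x, h, act_inv_act]

lemma act_add (g : Cfsg.SU n F q) (x y : Fin n → F) : act g (x + y) = act g x + act g y :=
  Matrix.mulVec_add _ _ _

lemma act_sub (g : Cfsg.SU n F q) (x y : Fin n → F) : act g (x - y) = act g x - act g y :=
  Matrix.mulVec_sub _ _ _

lemma act_smul (g : Cfsg.SU n F q) (c : F) (x : Fin n → F) : act g (c • x) = c • act g x :=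
  Matrix.mulVec_smul _ _ _

lemma act_zero (g : Cfsg.SU n F q) : act g 0 = 0 := Matrix.mulVec_zero _

lemma act_ne_zero (g : Cfsg.SU n F q) {x : Fin n → F} (hx : x ≠ 0) : act g x ≠ 0 :=
  fun h => hx (act_injective g (h.trans (act_zero g).symm))

lemma form_act (g : Cfsg.SU n F q) (x y : Fin n → F) : ⟪act g x, act g y⟫ = ⟪x, y⟫ := g.2 x y

lemma ext_act {g g' : Cfsg.SU n F q} (h : ∀ x, act g x = act g' x) : g = g' :=
  H3.SU_ext (Matrix.ext_of_mulVec_single fun i => h _)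

variable [Fintype F]

section Form

variable (hF : Fintype.card F = q ^ 2)
include hF

lemma q_ne_zero : q ≠ 0 := by have := H3.two_le_q hF; omega

lemma hadd_l (u u' v : Fin n → F) : ⟪u + u', v⟫ = ⟪u, v⟫ + ⟪u', v⟫ := H3.hermForm_add_left hF u u' v

lemma hadd_r (u v v' : Fin n → F) : ⟪u, v + v'⟫ = ⟪u, v⟫ + ⟪u, v'⟫ := H3.hermForm_add_right hF u v v'

lemma hsub_l (u u' v : Fin n → F) : ⟪u - u', v⟫ = ⟪u, v⟫ - ⟪u', v⟫ := H3.hermForm_sub_left hF u u' v

lemma hsub_r (u v v' : Fin n → F) : ⟪u, v - v'⟫ = ⟪u, v⟫ - ⟪u, v'⟫ := H3.hermForm_sub_right hF u v v'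

lemma hsmul_l (a : F) (u v : Fin n → F) : ⟪a • u, v⟫ = a * ⟪u, v⟫ := H3.hermForm_smul_left hF a u v

lemma hsmul_r (a : F) (u v : Fin n → F) : ⟪u, a • v⟫ = a ^ q * ⟪u, v⟫ := H3.hermForm_smul_right hF a u v

lemma hzero_l (v : Fin n → F) : ⟪(0 : Fin n → F), v⟫ = 0 := H3.hermForm_zero_left hF v

lemma hzero_r (v : Fin n → F) : ⟪v, (0 : Fin n → F)⟫ = 0 := H3.hermForm_zero_right hF v

lemma hneg_l (u v : Fin n → F) : ⟪-u, v⟫ = -⟪u, v⟫ := H3.hermForm_neg_left hF u v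

lemma hneg_r (u v : Fin n → F) : ⟪u, -v⟫ = -⟪u, v⟫ := by
  rw [← zero_sub v, hsub_r hF, hzero_r hF, zero_sub]

lemma hswap (u v : Fin n → F) : ⟪u, v⟫ ^ q = ⟪v, u⟫ := H3.hermForm_pow_q hF u v

lemma hswap_zero {u v : Fin n → F} (h : ⟪u, v⟫ = 0) : ⟪v, u⟫ = 0 :=
  (H3.hermForm_eq_zero_comm hF).1 h

lemma qadd (a b : F) : (a + b) ^ q = a ^ q + b ^ q := H3.add_pow_q hF a b

lemma qsub (a b : F) : (a - b) ^ q = a ^ q - b ^ q := map_sub (H3.conjQ hF) a b

lemma qneg (a : F) : (-a) ^ q = -a ^ q := map_neg (H3.conjQ hF) a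

lemma qq (a : F) : (a ^ q) ^ q = a := H3.pow_q_pow_q hF a

end Form

/-- The parameters of an Eichler element. -/
def Ok (q : ℕ) (p x : Fin n → F) (a : F) : Prop :=
  Cfsg.hermForm n F q p p = 0 ∧ Cfsg.hermForm n F q p x = 0 ∧ a + a ^ q + Cfsg.hermForm n F q x x = 0

open scoped Classical in
/-- The Eichler element `u ↦ u + ⟪u, p⟫ x - ⟪u, x⟫ p + a ⟪u, p⟫ p`, extended by `1`. -/
noncomputable def E (hF : Fintype.card F = q ^ 2) (p x : Fin n → F) (a : F) : Cfsg.SU n F q :=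
  if h : Ok q p x a then H3.suRoot hF p x a h.1 h.2.1 h.2.2 else 1

variable (hF : Fintype.card F = q ^ 2)

lemma act_E {p x : Fin n → F} {a : F} (h : Ok q p x a) (u : Fin n → F) :
    act (E hF p x a) u = u + ⟪u, p⟫ • x - ⟪u, x⟫ • p + (a * ⟪u, p⟫) • p := by
  rw [E, dif_pos h]
  exact H3.rootMat_mulVec p x a u

lemma ok_zero {p : Fin n → F} (hp : ⟪p, p⟫ = 0) {a : F} (ha : a + a ^ q = 0)
    (hF : Fintype.card F = q ^ 2) : Ok q p 0 a :=
  ⟨hp, hzero_r hF p, by rw [hzero_r hF, add_zero, ha]⟩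

include hF in
lemma ok_add {p x y : Fin n → F} {a b : F} (hx : Ok q p x a) (hy : Ok q p y b) :
    Ok q p (x + y) (a + b - ⟪y, x⟫) := by
  refine ⟨hx.1, by rw [hadd_r hF, hx.2.1, hy.2.1, add_zero], ?_⟩
  rw [qsub hF, qadd hF, hswap hF y x, hadd_l hF, hadd_r hF, hadd_r hF]
  linear_combination hx.2.2 + hy.2.2

lemma E_mul {p x y : Fin n → F} {a b : F} (hx : Ok q p x a) (hy : Ok q p y b) :
    E hF p x a * E hF p y b = E hF p (x + y) (a + b - ⟪y, x⟫) := by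
  refine ext_act fun u => ?_
  rw [act_mul, act_E hF (ok_add hF hx hy), act_E hF hy, act_E hF hx]
  simp only [hadd_l hF, hsub_l hF, hsmul_l hF, hadd_r hF, hx.1, hx.2.1, hswap_zero hF hy.2.1,
    mul_zero, add_zero, sub_zero]
  module

lemma E_zero {p : Fin n → F} (hp : ⟪p, p⟫ = 0) : E hF p 0 0 = 1 := by
  refine ext_act fun u => ?_
  rw [act_E hF (ok_zero hp (by rw [zero_pow (q_ne_zero hF), add_zero]) hF), act_one, hzero_r hF]
  simp

include hF in
lemma ok_neg {p x : Fin n → F} {a : F} (hx : Ok q p x a) : Ok q p (-x) (a ^ q) := by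
  refine ⟨hx.1, by rw [hneg_r hF, hx.2.1, neg_zero], ?_⟩
  rw [qq hF, hneg_l hF, hneg_r hF, neg_neg]
  linear_combination hx.2.2

lemma E_inv {p x : Fin n → F} {a : F} (hx : Ok q p x a) :
    (E hF p x a)⁻¹ = E hF p (-x) (a ^ q) := by
  refine inv_eq_of_mul_eq_one_right ?_
  rw [E_mul hF hx (ok_neg hF hx), add_neg_cancel, hneg_l hF, sub_neg_eq_add,
    show a + a ^ q + ⟪x, x⟫ = 0 from hx.2.2, E_zero hF hx.1]

lemma ok_act {p x : Fin n → F} {a : F} (g : Cfsg.SU n F q) (h : Ok q p x a) :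
    Ok q (act g p) (act g x) a :=
  ⟨by rw [form_act]; exact h.1, by rw [form_act]; exact h.2.1, by rw [form_act]; exact h.2.2⟩

lemma E_conj {p x : Fin n → F} {a : F} (g : Cfsg.SU n F q) (h : Ok q p x a) :
    g * E hF p x a * g⁻¹ = E hF (act g p) (act g x) a := by
  refine ext_act fun u => ?_
  rw [act_mul, act_mul, act_E hF h, act_E hF (ok_act g h)]
  have e : ∀ v, ⟪act g⁻¹ u, v⟫ = ⟪u, act g v⟫ := fun v => by
    rw [← form_act g (act g⁻¹ u) v, act_act_inv]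
  simp only [act_add, act_sub, act_smul, act_act_inv, e]

include hF in
lemma ok_smul {p x : Fin n → F} {a : F} (c : F) (h : Ok q p x a) :
    Ok q p (c ^ q • x) (c * c ^ q * a) := by
  refine ⟨h.1, by rw [hsmul_r hF, h.2.1, mul_zero], ?_⟩
  rw [mul_pow, mul_pow, qq hF, hsmul_l hF, hsmul_r hF, qq hF]
  linear_combination (c ^ q * c) * h.2.2

/-- Rescaling the centre. -/
lemma E_smul {p x : Fin n → F} {a : F} {c : F} (hc : c ≠ 0) (h : Ok q (c • p) x a) :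
    E hF (c • p) x a = E hF p (c ^ q • x) (c * c ^ q * a) := by
  have hp : ⟪p, p⟫ = 0 := by
    have h1 := h.1
    rw [hsmul_l hF, hsmul_r hF, mul_eq_zero, mul_eq_zero] at h1
    exact (h1.resolve_left hc).resolve_left (pow_ne_zero _ hc)
  have hpx : ⟪p, x⟫ = 0 := by
    have h1 := h.2.1
    rw [hsmul_l hF, mul_eq_zero] at h1
    exact h1.resolve_left hc
  have hok : Ok q p x a := ⟨hp, hpx, h.2.2⟩
  refine ext_act fun u => ?_
  rw [act_E hF h, act_E hF (ok_smul hF c hok)]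
  simp only [hsmul_r hF, qq hF]
  module

/-- Shifting the vector along the centre. -/
lemma E_shift {p x : Fin n → F} {a l : F} (h : Ok q p (x + l • p) a) :
    E hF p (x + l • p) a = E hF p x (a + l - l ^ q) := by
  have hp := h.1
  have hpx : ⟪p, x⟫ = 0 := by
    have h1 := h.2.1
    rwa [hadd_r hF, hsmul_r hF, hp, mul_zero, add_zero] at h1
  have h3 : a + a ^ q + ⟪x, x⟫ = 0 := by
    have h1 := h.2.2
    simp only [hadd_l hF, hadd_r hF, hsmul_l hF, hsmul_r hF, hp, hpx, hswap_zero hF hpx, mul_zero,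
      add_zero] at h1
    exact h1
  have hok : Ok q p x (a + l - l ^ q) := ⟨hp, hpx, by rw [qsub hF, qadd hF, qq hF]; linear_combination h3⟩
  refine ext_act fun u => ?_
  rw [act_E hF h, act_E hF hok]
  simp only [hadd_r hF, hsmul_r hF]
  module

include hF in
/-- Some scalar completes any vector orthogonal to `p`. -/
lemma exists_ok {p x : Fin n → F} (hp : ⟪p, p⟫ = 0) (hx : ⟪p, x⟫ = 0) : ∃ a, Ok q p x a := by
  obtain ⟨a, ha⟩ := H3.exists_trace_eq hF (a := -⟪x, x⟫) (by rw [qneg hF, hswap hF])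
  exact ⟨a, hp, hx, by linear_combination ha⟩

lemma E_eq_trans {p : Fin n → F} (hp : ⟪p, p⟫ = 0) {a : F} (ha : a + a ^ q = 0) :
    ((E hF p 0 a).1 : Matrix (Fin n) (Fin n) F) = Cfsg.unitaryTransvection n q p a := by
  rw [E, dif_pos (ok_zero hp ha hF)]
  exact H3.rootMat_zero hF p a

include hF in
lemma act_trans {p : Fin n → F} (hp : ⟪p, p⟫ = 0) {a : F} (ha : a + a ^ q = 0) (u : Fin n → F) :
    act (E hF p 0 a) u = u + (a * ⟪u, p⟫) • p := by
  rw [act_E hF (ok_zero hp ha hF), hzero_r hF]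
  simp

lemma E_center_zero (a : F) (ha : a + a ^ q = 0) : E hF (0 : Fin n → F) 0 a = 1 := by
  refine ext_act fun u => ?_
  rw [act_trans hF (hzero_l hF 0) ha, act_one, smul_zero, add_zero]

/-- A subgroup containing all transvections is everything. -/
lemma eq_top_of_trans (hn : 2 ≤ n) (h32 : ¬(n = 3 ∧ q = 2)) (H : Subgroup (Cfsg.SU n F q))
    (h : ∀ v a, v ≠ 0 → ⟪v, v⟫ = 0 → a + a ^ q = 0 → E hF v 0 a ∈ H) : H = ⊤ := by
  rw [eq_top_iff, ← H3.su_closure_eq_top hF hn h32, Subgroup.closure_le]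
  rintro A ⟨v, c, hv, hA⟩
  by_cases hv0 : v = 0
  · subst hv0
    have : A = 1 := H3.SU_ext (by rw [hA]; simp [Cfsg.unitaryTransvection])
    rw [this]; exact H.one_mem
  have hpres : ∀ x y, ⟪Cfsg.unitaryTransvection n q v c *ᵥ x, Cfsg.unitaryTransvection n q v c *ᵥ y⟫ =
      ⟪x, y⟫ := fun x y => by
    rw [← hA]; exact A.2 x y
  have hc := H3.trace_zero_of_transvection_preserves hF hv0 hv hpres
  have : A = E hF v 0 c := H3.SU_ext (by rw [hA, E_eq_trans hF hv hc])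
  rw [this]; exact h v c hv0 hv hc

/-- A transitive action of `SU` in which all transvections fix a point is trivial. -/
lemma card_le_one_of_trans_fix {Ω : Type*} [MulAction (Cfsg.SU n F q) Ω] [Finite Ω]
    [MulAction.IsPretransitive (Cfsg.SU n F q) Ω] (hn : 2 ≤ n) (h32 : ¬(n = 3 ∧ q = 2)) (ω : Ω)
    (h : ∀ (v : Fin n → F) a, v ≠ 0 → ⟪v, v⟫ = 0 → a + a ^ q = 0 → E hF v 0 a • ω = ω) : Nat.card Ω ≤ 1 := by
  have htop := eq_top_of_trans hF hn h32 (MulAction.stabilizer (Cfsg.SU n F q) ω) fun v a h1 h2 h3 =>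
    h v a h1 h2 h3
  refine Finite.card_le_one_iff_subsingleton.mpr ⟨fun x y => ?_⟩
  obtain ⟨g, rfl⟩ := MulAction.exists_smul_eq (Cfsg.SU n F q) ω x
  obtain ⟨k, rfl⟩ := MulAction.exists_smul_eq (Cfsg.SU n F q) ω y
  have hg : g ∈ MulAction.stabilizer (Cfsg.SU n F q) ω := htop ▸ Subgroup.mem_top g
  have hk : k ∈ MulAction.stabilizer (Cfsg.SU n F q) ω := htop ▸ Subgroup.mem_top k
  rw [MulAction.mem_stabilizer_iff.mp hg, MulAction.mem_stabilizer_iff.mp hk]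

/-- All of the radical at `p` fixes `ω`. -/
def AllFix {Ω : Type*} [MulAction (Cfsg.SU n F q) Ω] (hF : Fintype.card F = q ^ 2)
    (p : Fin n → F) (ω : Ω) : Prop :=
  p ≠ 0 ∧ Cfsg.hermForm n F q p p = 0 ∧ ∀ x a, Ok q p x a → E hF p x a • ω = ω

lemma AllFix.act {Ω : Type*} [MulAction (Cfsg.SU n F q) Ω] {p : Fin n → F} {ω : Ω}
    (h : AllFix hF p ω) (g : Cfsg.SU n F q) : AllFix hF (MinU.act g p) (g • ω) := by
  refine ⟨act_ne_zero g h.1, by rw [form_act]; exact h.2.1, fun x a hx => ?_⟩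
  have h0 := ok_act g⁻¹ hx
  rw [act_inv_act] at h0
  have e := E_conj hF g h0
  rw [act_act_inv] at e
  rw [← e, mul_smul, mul_smul, inv_smul_smul, h.2.2 _ _ h0]

lemma conj_trans_fix {Ω : Type*} [MulAction (Cfsg.SU n F q) Ω] {v : Fin n → F} {ω : Ω}
    (hv : ⟪v, v⟫ = 0) (h : ∀ a, a + a ^ q = 0 → E hF v 0 a • ω = ω) {g : Cfsg.SU n F q}
    (hg : g • ω = ω) : ∀ a, a + a ^ q = 0 → E hF (act g v) 0 a • ω = ω := fun a ha => by
  have e := E_conj hF g (ok_zero hv ha hF)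
  rw [act_zero] at e
  rw [← e, mul_smul, mul_smul, show g⁻¹ • ω = ω by rw [inv_smul_eq_iff, hg], h a ha, hg]

/-- Two non-orthogonal full radicals fix everything. -/
lemma fix_all {Ω : Type*} [MulAction (Cfsg.SU n F q) Ω] [Finite Ω]
    [MulAction.IsPretransitive (Cfsg.SU n F q) Ω] (hn : 2 ≤ n) (h32 : ¬(n = 3 ∧ q = 2))
    {ω : Ω} {p s : Fin n → F} (hp : AllFix hF p ω) (hs : AllFix hF s ω) (hps : ⟪p, s⟫ ≠ 0) :
    Nat.card Ω ≤ 1 := by
  refine card_le_one_of_trans_fix hF hn h32 ω ?_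
  have hsT : ∀ a, a + a ^ q = 0 → E hF s 0 a • ω = ω := fun a ha =>
    hs.2.2 0 a (ok_zero hs.2.1 ha hF)
  have hout : ∀ b, ⟪b, b⟫ = 0 → ⟪b, p⟫ ≠ 0 → ∀ a, a + a ^ q = 0 → E hF b 0 a • ω = ω := by
    intro b hb hbp
    have hsp : ⟪s, p⟫ ≠ 0 := fun h0 => hps (hswap_zero hF h0)
    set k := ⟪b, p⟫ / ⟪s, p⟫ with hk
    have hk0 : k ≠ 0 := div_ne_zero hbp hsp
    have hkp : ⟪k • s, p⟫ = ⟪b, p⟫ := by rw [hsmul_l hF, hk, div_mul_cancel₀ _ hsp]
    -- move `s' = k • s` to `b` by an element of the radical of `p`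
    set s' := k • s with hs'
    have hs'0 : ⟪s', s'⟫ = 0 := by rw [hs', hsmul_l hF, hsmul_r hF, hs.2.1, mul_zero, mul_zero]
    have hs'T : ∀ a, a + a ^ q = 0 → E hF s' 0 a • ω = ω := fun a ha => by
      rw [hs', E_smul hF hk0 (by rw [← hs']; exact ok_zero hs'0 ha hF), smul_zero]
      refine hsT _ ?_
      rw [mul_pow, mul_pow, qq hF]
      linear_combination (k * k ^ q) * ha
    set c := ⟪b, p⟫ with hc
    set x := c⁻¹ • (b - s') with hx
    have hpx : ⟪p, x⟫ = 0 := by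
      rw [hx, hsmul_r hF]
      refine mul_eq_zero_of_right _ (hswap_zero hF ?_)
      rw [hsub_l hF, hkp, ← hc, sub_self]
    have hxx : c⁻¹ * ⟪s', x⟫ + (c⁻¹ * ⟪s', x⟫) ^ q + ⟪x, x⟫ = 0 := by
      have e1 : ⟪s', x⟫ = (c⁻¹) ^ q * ⟪s', b⟫ := by
        rw [hx, hsmul_r hF, hsub_r hF, hs'0, sub_zero]
      have e2 : ⟪x, x⟫ = c⁻¹ * ((c⁻¹) ^ q * (-⟪b, s'⟫ - ⟪s', b⟫)) := by
        rw [hx, hsmul_l hF, hsmul_r hF, hsub_l hF, hsub_r hF, hsub_r hF, hb, hs'0]; ring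
      rw [e1, e2, mul_pow, mul_pow, qq hF, hswap hF]
      ring
    have hok : Ok q p x (c⁻¹ * ⟪s', x⟫) := ⟨hp.2.1, hpx, hxx⟩
    have hmove : act (E hF p x (c⁻¹ * ⟪s', x⟫)) s' = b := by
      have e1 : c • x = b - s' := by rw [hx, smul_smul, mul_inv_cancel₀ hbp, one_smul]
      rw [act_E hF hok, hkp, e1, show c⁻¹ * ⟪s', x⟫ * c = ⟪s', x⟫ by field_simp]
      abel
    have := conj_trans_fix hF hs'0 hs'T (hp.2.2 _ _ hok)
    rwa [hmove] at this
  intro v a hv0 hv ha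
  by_cases hvp : ⟪v, p⟫ = 0
  swap
  · exact hout v hv hvp a ha
  obtain ⟨b, hb, hpb, hvb⟩ := H98.Herm.exists_common (H98.Herm.isUnitary_std hF) hp.1 hv0 hp.2.1 hv
  have hbp : ⟪b, p⟫ ≠ 0 := fun h0 => hpb (hswap_zero hF h0)
  obtain ⟨γ, hγ0, hγ⟩ := H3.exists_trace_zero_ne_zero hF
  set g := E hF b 0 γ with hg
  have hgω : g • ω = ω := hout b hb hbp γ hγ
  set w := act g⁻¹ v with hw
  have hwp : ⟪w, p⟫ ≠ 0 := by
    rw [hw, hg, E_inv hF (ok_zero hb hγ hF), neg_zero, act_trans hF hb (by rw [qq hF]; linear_combination hγ),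
      hadd_l hF, hvp, zero_add, hsmul_l hF]
    exact mul_ne_zero (mul_ne_zero (pow_ne_zero _ hγ0) hvb) hbp
  have hww : ⟪w, w⟫ = 0 := by rw [hw, form_act]; exact hv
  have := conj_trans_fix hF hww (hout w hww hwp) hgω a ha
  rwa [hw, act_act_inv] at this

end Cfsg.Agent.H2.MinU
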