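import Cfsg.Agent.H2.MinU.Frame

/-!
Orbits of `SU m` on vectors: sizes and transitivity.
-/

set_option autoImplicit false

namespace Cfsg.Agent.H2.MinU

open Matrix MulAction

variable {F : Type*} [Field F] [Fintype F] {q m : ℕ}

local notation "⟪" u ", " v "⟫" => Cfsg.hermForm _ F q u v

variable (hF : Fintype.card F = q ^ 2)

omit [Fintype F] in
lemma smul_eq_act (g : Cfsg.SU m F q) (v : Fin m → F) : g • v = act g v := rfl

include hF

/-- A base vector of each value with a coordinate to spare. -/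
theorem exists_base (hm : 2 ≤ m) {a : F} (ha : a ^ q = a) (h : a ≠ 0 ∨ 3 ≤ m) :
    ∃ (v : Fin m → F) (j : Fin m), v ≠ 0 ∧ ⟪v, v⟫ = a ∧ v j = 0 := by
  have hq := q_ne_zero hF
  by_cases h0 : a = 0
  · have h3 : 3 ≤ m := h.resolve_left (fun hne => hne h0)
    obtain ⟨ε, -, -, hε, -⟩ := H3.exists_two_norm_neg_one hF
    set i0 : Fin m := ⟨0, by omega⟩
    set i1 : Fin m := ⟨1, by omega⟩
    have h01 : i0 ≠ i1 := by simp [i0, i1]
    refine ⟨Pi.single i0 1 + ε • Pi.single i1 1, ⟨2, by omega⟩, fun he => ?_, ?_, ?_⟩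
    · have := congrFun he i0
      simp [h01] at this
    · rw [h0]; exact H3.hermForm_pair_isotropic hF h01 hε
    · simp [i0, i1, Fin.ext_iff]
  · obtain ⟨c, hc⟩ := H3.exists_norm_eq hF ha
    have hc0 : c ≠ 0 := fun e => h0 (by rw [← hc, e, zero_pow (Nat.succ_ne_zero q)])
    refine ⟨Pi.single ⟨0, by omega⟩ c, ⟨1, by omega⟩, fun he => ?_, ?_, ?_⟩
    · have := congrFun he ⟨0, by omega⟩
      simp at this
      exact hc0 this
    · rw [H3.hermForm_single_left, Pi.single_eq_same, ← hc, pow_succ']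
    · simp [Fin.ext_iff]

/-- From the base vector to any vector of the same value inside `SU m`. -/
theorem exists_from_base {v₀ v : Fin m → F} {j : Fin m} (hv₀ : v₀ ≠ 0) (hj : v₀ j = 0) (hv : v ≠ 0)
    (h : ⟪v₀, v₀⟫ = ⟪v, v⟫) : ∃ g : Cfsg.SU m F q, g • v₀ = v := by
  classical
  obtain ⟨a, ha⟩ := H3.exists_GU_mulVec_eq hF hv₀ hv h
  set u := (a.1 : Matrix (Fin m) (Fin m) F).det with hu
  have hu1 : u ^ (q + 1) = 1 := H3.det_GU hF a
  have hu0 : u ≠ 0 := fun e => by simp [e] at hu1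
  let d : Fin m → F := Function.update (fun _ => 1) j u⁻¹
  have hd : ∀ i, d i ^ (q + 1) = 1 := fun i => by
    by_cases hi : i = j
    · subst hi; simp [d, hu1]
    · simp [d, hi]
  have hk : a * H3.guDiag d hd ∈ (H3.guDet m F q).ker := MonoidHom.mem_ker.mpr (Units.ext (by
    show ((a.1 * (H3.guDiag d hd).1 : GL (Fin m) F) : Matrix (Fin m) (Fin m) F).det = 1
    rw [Units.val_mul, Matrix.det_mul, ← hu]
    simp [H3.guDiag, d, Finset.prod_update_of_mem, hu0]))
  refine ⟨(H3.suEquivKer m F q).symm ⟨_, hk⟩, ?_⟩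
  show ((a * H3.guDiag d hd).1 : Matrix (Fin m) (Fin m) F) *ᵥ v₀ = v
  rw [H3.mul_mulVec_GU]
  have : ((H3.guDiag d hd).1 : Matrix (Fin m) (Fin m) F) *ᵥ v₀ = v₀ := by
    funext i
    by_cases hi : i = j
    · subst hi; simp [H3.guDiag, Matrix.mulVec_diagonal, hj]
    · simp [H3.guDiag, Matrix.mulVec_diagonal, d, hi]
  rw [this, ha]

/-- `SU m` is transitive on the non-zero vectors of each value. -/
theorem orbit_eq_class (hm : 2 ≤ m) {v : Fin m → F} (hv : v ≠ 0) (h : ⟪v, v⟫ ≠ 0 ∨ 3 ≤ m) :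
    orbit (Cfsg.SU m F q) v = {w | w ≠ 0 ∧ ⟪w, w⟫ = ⟪v, v⟫} := by
  obtain ⟨v₀, j, h1, h2, h3⟩ := exists_base hF hm (hswap hF v v) h
  obtain ⟨g, hg⟩ := exists_from_base hF h1 h3 hv h2
  ext w
  constructor
  · rintro ⟨k, rfl⟩
    exact ⟨act_ne_zero k hv, form_act k v v⟩
  · rintro ⟨hw, hww⟩
    obtain ⟨k, hk⟩ := exists_from_base hF h1 h3 hw (h2.trans hww.symm)
    exact ⟨k * g⁻¹, by simp only [mul_smul, ← hg, inv_smul_smul, hk]⟩

/-- The number of vectors of a non-zero value. -/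
theorem card_value {a : F} (ha : a ^ q = a) (ha0 : a ≠ 0) :
    {w : Fin m → F | w ≠ 0 ∧ ⟪w, w⟫ = a}.ncard =
      Nat.card {v : Fin m → F // Cfsg.hermForm m F q v v = 1} := by
  obtain ⟨c, hc⟩ := H3.exists_norm_eq hF ha
  have hc0 : c ≠ 0 := fun e => ha0 (by rw [← hc, e, zero_pow (Nat.succ_ne_zero q)])
  rw [← Nat.card_coe_set_eq]
  refine Nat.card_congr
    { toFun := fun w => ⟨c⁻¹ • w.1, by
        rw [hsmul_l hF, hsmul_r hF, w.2.2, ← hc, ← mul_assoc, ← pow_succ', inv_pow,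
          inv_mul_cancel₀ (pow_ne_zero _ hc0)]⟩
      invFun := fun v => ⟨c • v.1, fun e => by
          have := v.2
          rw [(smul_eq_zero.mp e).resolve_left hc0, hzero_l hF] at this
          exact zero_ne_one this,
        by rw [hsmul_l hF, hsmul_r hF, v.2, mul_one, ← pow_succ', hc]⟩
      left_inv := fun w => Subtype.ext (smul_inv_smul₀ hc0 _)
      right_inv := fun v => Subtype.ext (inv_smul_smul₀ hc0 _) }

/-- The non-zero isotropic vectors. -/
theorem card_iso (n : ℕ) : ({w : Fin n → F | w ≠ 0 ∧ ⟪w, w⟫ = 0}.ncard : ℤ) =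
    ((q : ℤ) ^ 2 - 1) * pts q n := by
  have h0 : (0 : Fin n → F) ∈ {w : Fin n → F | ⟪w, w⟫ = 0} := hzero_l hF 0
  have e : {w : Fin n → F | w ≠ 0 ∧ ⟪w, w⟫ = 0} = {w : Fin n → F | ⟪w, w⟫ = 0} \ {0} := by
    ext w
    simp [and_comm]
  have h1 := Set.ncard_sdiff_singleton_add_one h0 (Set.toFinite _)
  rw [← Nat.card_coe_set_eq {w : Fin n → F | ⟪w, w⟫ = 0}] at h1
  have h2 := H3.card_isotropic_int hF n
  rw [show Nat.card {v : Fin n → F // Cfsg.hermForm n F q v v = 0} =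
    ({w : Fin n → F | ⟪w, w⟫ = 0} \ {0}).ncard + 1 from h1.symm] at h2
  rw [e]
  have hq : (q : ℤ) ≠ 0 := by exact_mod_cast q_ne_zero hF
  apply mul_left_cancel₀ hq
  rcases n with _ | k
  · have : ({w : Fin 0 → F | ⟪w, w⟫ = 0} \ {0}) = ∅ := Set.eq_empty_of_forall_notMem fun w hw =>
      hw.2 (Subsingleton.elim w 0)
    rw [this]; simp [pts]
  · rw [pts_int]
    push_cast at h2
    rw [pow_succ (-1 : ℤ) k] at h2
    have h3 : ((-1 : ℤ) ^ k) * ((-1 : ℤ) ^ k) = 1 := by rw [← mul_pow]; norm_num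
    rw [show 2 * (k + 1) = k + k + 2 by ring, pow_add, pow_add, pow_succ (q : ℤ) k] at h2
    rw [pow_succ (q : ℤ) k]
    linear_combination h2 + (q : ℤ) * h3

/-- Orbit of an isotropic vector. -/
theorem card_orbit_iso (hm : 3 ≤ m) {v : Fin m → F} (hv : v ≠ 0) (h0 : ⟪v, v⟫ = 0) :
    (orbit (Cfsg.SU m F q) v).ncard = (q ^ 2 - 1) * pts q m := by
  rw [orbit_eq_class hF (by omega) hv (Or.inr hm), h0]
  have h := card_iso hF (F := F) m
  have : 1 ≤ q ^ 2 := Nat.one_le_pow _ _ (by have := H3.two_le_q hF; omega)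
  zify [this]
  exact h

/-- Orbit of a non-isotropic vector. -/
theorem card_orbit_noniso {k : ℕ} (hk : 1 ≤ k) {v : Fin (k + 1) → F} (h0 : ⟪v, v⟫ ≠ 0) :
    (orbit (Cfsg.SU (k + 1) F q) v).ncard =
      q ^ k * if Even k then q ^ (k + 1) + 1 else q ^ (k + 1) - 1 := by
  have hv : v ≠ 0 := fun e => h0 (by rw [e, hzero_l hF])
  rw [orbit_eq_class hF (by omega) hv (Or.inl h0), card_value hF (hswap hF v v) h0,
    H3.card_norm_one_vectors hF]

/-- A lower bound for all orbits on non-zero vectors. -/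
theorem orbit_lower {k : ℕ} (hk : 2 ≤ k) {v : Fin (k + 1) → F} (hv : v ≠ 0) :
    q * q ^ k * q ^ k ≤ (orbit (Cfsg.SU (k + 1) F q) v).ncard + q * q ^ k := by
  by_cases h0 : ⟪v, v⟫ = 0
  · have hi := card_iso hF (F := F) (k + 1)
    rw [pts_int] at hi
    rw [orbit_eq_class hF (by omega) hv (Or.inr (by omega)), h0]
    have hq2 : (2 : ℤ) ≤ q := by exact_mod_cast H3.two_le_q hF
    have hX : (1 : ℤ) ≤ (q : ℤ) ^ k := one_le_pow₀ (by omega)
    zify
    rw [hi, pow_succ (q : ℤ) k]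
    rcases Nat.even_or_odd k with he | ho
    · rw [he.neg_one_pow]; nlinarith
    · rw [ho.neg_one_pow]; nlinarith
  · rw [card_orbit_noniso hF (by omega) h0]
    have hq := H3.two_le_q hF
    have hqq : q ^ k ≤ q * q ^ k := Nat.le_mul_of_pos_left _ (by omega)
    split_ifs
    · rw [pow_succ, mul_add, mul_one]; nlinarith
    · rw [Nat.mul_sub, mul_one, pow_succ]
      rw [show q ^ k * (q ^ k * q) = q * q ^ k * q ^ k by ring]
      omega

end Cfsg.Agent.H2.MinU
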