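import Mathlib

/-!
Counting lemmas for group actions, and the number of isotropic points of a unitary space.
-/

set_option autoImplicit false

namespace Cfsg.Agent.H2.MinU

open MulAction
open scoped Pointwise

/-! ### The number of isotropic points -/

/-- The number of isotropic points of a unitary space of dimension `n`. -/
def pts (q : ℕ) : ℕ → ℕ
  | 0 => 0
  | 1 => 0
  | n + 2 => 1 + q ^ 2 * pts q n + q ^ (2 * n + 1)

lemma pts_succ_succ (q n : ℕ) : pts q (n + 2) = 1 + q ^ 2 * pts q n + q ^ (2 * n + 1) := rfl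

lemma pts_two (q : ℕ) : pts q 2 = 1 + q := by simp [pts]

lemma pts_three (q : ℕ) : pts q 3 = q ^ 3 + 1 := by simp [pts]; ring

lemma pts_four (q : ℕ) : pts q 4 = (q ^ 2 + 1) * (q ^ 3 + 1) := by simp [pts]; ring

lemma pts_int (q : ℕ) : ∀ n : ℕ, ((q : ℤ) ^ 2 - 1) * pts q (n + 1) =
    ((q : ℤ) ^ (n + 1) + (-1) ^ n) * ((q : ℤ) ^ n - (-1) ^ n) := by
  intro n
  induction n using Nat.twoStepInduction with
  | zero => simp [pts]
  | one => simp [pts]; ring
  | more n ih _ =>
    rw [show n + 2 + 1 = n + 1 + 2 by ring, pts_succ_succ]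
    push_cast
    have h1 : ((-1 : ℤ) ^ n) * ((-1 : ℤ) ^ n) = 1 := by rw [← mul_pow]; norm_num
    rw [show 2 * (n + 1) + 1 = (n + n) + 3 by ring, pow_add (-1 : ℤ) n 2, pow_add (q : ℤ) (n + n) 3,
      pow_add (q : ℤ) n n]
    ring_nf
    ring_nf at ih h1
    linear_combination (q : ℤ) ^ 2 * ih + (1 - (q : ℤ) ^ 2) * h1

lemma pts_small {q : ℕ} (hq : 2 ≤ q) : ∀ m, 1 ≤ m → q ^ 2 * pts q m + 2 ≤ q ^ (2 * m) := by
  intro m
  induction m using Nat.twoStepInduction with
  | zero => intro h; omega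
  | one =>
    intro _
    simp only [pts, mul_zero, zero_add, mul_one]
    nlinarith
  | more m ih _ =>
    intro _
    rw [pts_succ_succ, show 2 * (m + 2) = 2 * m + 4 by ring, pow_add q (2 * m) 4, pow_succ q (2 * m)]
    have hq2 : 1 + q ≤ q ^ 2 := by nlinarith
    rcases Nat.eq_zero_or_pos m with rfl | hm
    · simp only [pts, mul_zero, pow_zero, add_zero, one_mul]
      have h4 : 4 ≤ q ^ 2 := by nlinarith
      have h3 : q ^ 2 * (1 + q) ≤ q ^ 2 * q ^ 2 := Nat.mul_le_mul_left _ hq2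
      rcases eq_or_lt_of_le hq with h | h
      · subst h; norm_num
      · have h5 : 1 + q + 1 ≤ q ^ 2 := by nlinarith
        have h6 : q ^ 2 * (1 + q + 1) ≤ q ^ 2 * q ^ 2 := Nat.mul_le_mul_left _ h5
        rw [show q ^ 4 = q ^ 2 * q ^ 2 by ring]
        nlinarith
    · have h1 := ih hm
      generalize q ^ (2 * m) = X at h1 ⊢
      generalize q ^ 2 * pts q m = Y at h1 ⊢
      have h2 : q ^ 2 * (1 + Y + X * q) + q ^ 2 ≤ q ^ 2 * (X * (1 + q)) := by
        rw [← Nat.mul_succ]; exact Nat.mul_le_mul_left _ (by rw [mul_add]; omega)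
      have h3 : q ^ 2 * (X * (1 + q)) ≤ X * q ^ 4 := by
        rw [show X * q ^ 4 = q ^ 2 * (X * q ^ 2) by ring]
        exact Nat.mul_le_mul_left _ (Nat.mul_le_mul_left _ hq2)
      nlinarith

lemma pts_pos {q : ℕ} (hq : 1 ≤ q) (n : ℕ) : 1 ≤ pts q (n + 2) := by
  rw [pts_succ_succ]
  have := Nat.one_le_pow (2 * n + 1) q hq
  omega

/-! ### Group actions -/

variable {G : Type*} [Group G]

/-- A subgroup of the orbit stabiliser relation. -/
lemma card_orbit_mul_stab {Ω : Type*} [MulAction G Ω] (Q : Subgroup G) (ω : Ω) :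
    Nat.card (orbit Q ω) * Nat.card (stabilizer Q ω) = Nat.card Q := by
  rw [← Nat.card_prod]
  exact Nat.card_congr (MulAction.orbitProdStabilizerEquivGroup Q ω)

/-- Points with different invariants lie in different orbits. -/
theorem family_bound {Ω ι : Type*} [MulAction G Ω] [Finite Ω] (Q : Subgroup G) (inv : Ω → ι)
    (hinv : ∀ g ∈ Q, ∀ x, inv (g • x) = inv x) (S : Set Ω) (hS : ∀ g ∈ Q, ∀ x ∈ S, g • x ∈ S)
    (I : Set ι) (hI : I.Finite) (s : ℕ)
    (h : ∀ i ∈ I, ∃ x ∈ S, inv x = i ∧ s ≤ Nat.card (orbit Q x)) :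
    I.ncard * s ≤ S.ncard := by
  classical
  choose f hf1 hf2 hf3 using h
  have := hI.fintype
  let F : (Σ i : I, orbit Q (f i.1 i.2)) → S := fun p => ⟨p.2.1, by
    obtain ⟨g, hg⟩ := p.2.2
    rw [← hg]
    exact hS g.1 g.2 _ (hf1 _ _)⟩
  have hinj : Function.Injective F := by
    rintro ⟨⟨i, hi⟩, x, hx⟩ ⟨⟨j, hj⟩, y, hy⟩ h
    have hxy : x = y := congrArg Subtype.val h
    subst hxy
    obtain ⟨g, hg⟩ := hx
    obtain ⟨k, hk⟩ := hy
    have e1 : inv x = i := by rw [← hg]; exact (hinv g.1 g.2 _).trans (hf2 _ _)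
    have e2 : inv x = j := by rw [← hk]; exact (hinv k.1 k.2 _).trans (hf2 _ _)
    obtain rfl : i = j := e1.symm.trans e2
    rfl
  have key := Nat.card_le_card_of_injective F hinj
  rw [Nat.card_sigma, Nat.card_coe_set_eq] at key
  refine le_trans ?_ key
  rw [← Nat.card_coe_set_eq, Nat.card_eq_fintype_card, ← smul_eq_mul, ← Finset.card_univ]
  exact Finset.card_nsmul_le_sum _ _ _ fun i _ => hf3 _ _

/-- Double counting an invariant relation between two transitive sets. -/
theorem double_count {Ω L : Type*} [MulAction G Ω] [MulAction G L] [Finite Ω] [Finite L]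
    [IsPretransitive G Ω] [IsPretransitive G L] (R : Ω → L → Prop)
    (hR : ∀ (g : G) w l, R w l → R (g • w) (g • l)) (w₀ : Ω) (l₀ : L) :
    Nat.card Ω * Nat.card {l // R w₀ l} = Nat.card L * Nat.card {w // R w l₀} := by
  classical
  have := Fintype.ofFinite Ω
  have := Fintype.ofFinite L
  have hR' : ∀ (g : G) w l, R (g • w) (g • l) ↔ R w l := fun g w l =>
    ⟨fun h => by simpa using hR g⁻¹ _ _ h, hR g w l⟩
  have h1 : ∀ w, Nat.card {l // R w l} = Nat.card {l // R w₀ l} := fun w => by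
    obtain ⟨g, rfl⟩ := exists_smul_eq G w₀ w
    exact (Nat.card_congr (Equiv.subtypeEquiv (MulAction.toPerm g) fun l => (hR' g _ _).symm)).symm
  have h2 : ∀ l, Nat.card {w // R w l} = Nat.card {w // R w l₀} := fun l => by
    obtain ⟨g, rfl⟩ := exists_smul_eq G l₀ l
    refine (Nat.card_congr ?_).symm
    exact Equiv.subtypeEquiv (MulAction.toPerm g) fun w => (hR' g w l₀).symm
  have e : (Σ w, {l // R w l}) ≃ Σ l, {w // R w l} :=
    { toFun := fun p => ⟨p.2.1, p.1, p.2.2⟩
      invFun := fun p => ⟨p.2.1, p.1, p.2.2⟩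
      left_inv := fun p => rfl
      right_inv := fun p => rfl }
  have := Nat.card_congr e
  rwa [Nat.card_sigma, Nat.card_sigma, Finset.sum_congr rfl fun w _ => h1 w,
    Finset.sum_congr rfl fun l _ => h2 l, Finset.sum_const, Finset.sum_const, Finset.card_univ,
    Finset.card_univ, smul_eq_mul, smul_eq_mul, ← Nat.card_eq_fintype_card,
    ← Nat.card_eq_fintype_card] at this

/-- The endgame: one less than the number of points is impossible. -/
theorem false_of_double_count {N P x f : ℕ} (hNP : N + 1 = P) (h : N * f = P * x) (hx0 : 0 < x)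
    (hx : x < N) : False := by
  have h1 : N ∣ x := (Nat.coprime_self_add_right.mpr (Nat.coprime_one_right N) :
    Nat.Coprime N (N + 1)).dvd_of_dvd_mul_left (hNP ▸ ⟨f, h.symm⟩)
  exact absurd (Nat.le_of_dvd hx0 h1) (by omega)

variable {W : Type*} [AddCommGroup W] [Finite W] [DistribMulAction G W]

lemma card_smul_addSubgroup (g : G) (A : AddSubgroup W) :
    Nat.card (g • A : AddSubgroup W) = Nat.card A := by
  refine (Nat.card_congr (Equiv.subtypeEquiv (MulAction.toPerm g) fun x => ?_)).symm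
  exact AddSubgroup.smul_mem_pointwise_smul_iff.symm

/-- Vectors of a given orbit, counted through the translates of a subgroup. -/
theorem cover (A : AddSubgroup W) (a : W) : ∃ m, (a ∈ A → 1 ≤ m) ∧
    Nat.card (orbit G A) * ((A : Set W) ∩ orbit G a).ncard = (orbit G a).ncard * m := by
  classical
  have := Fintype.ofFinite W
  have : Finite (AddSubgroup W) := Finite.of_injective _ SetLike.coe_injective
  have := Fintype.ofFinite (orbit G A)
  have := Fintype.ofFinite (orbit G a)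
  refine ⟨Nat.card {S : orbit G A // a ∈ S.1}, fun ha => ?_, ?_⟩
  · have : Nonempty {S : orbit G A // a ∈ S.1} := ⟨⟨⟨A, mem_orbit_self A⟩, ha⟩⟩
    exact Nat.card_pos
  have h1 : ∀ S : orbit G A, Nat.card {x : orbit G a // x.1 ∈ S.1} =
      ((A : Set W) ∩ orbit G a).ncard := by
    rintro ⟨_, g, rfl⟩
    rw [← Nat.card_coe_set_eq]
    refine (Nat.card_congr ?_).symm
    refine
      { toFun := fun x => ⟨⟨g • x.1, by
          obtain ⟨k, hk⟩ := x.2.2; exact ⟨g * k, by simp only [← hk, mul_smul]⟩⟩,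
          AddSubgroup.smul_mem_pointwise_smul _ g A x.2.1⟩
        invFun := fun y => ⟨g⁻¹ • y.1.1,
          AddSubgroup.mem_pointwise_smul_iff_inv_smul_mem.mp y.2, by
            obtain ⟨k, hk⟩ := y.1.2; exact ⟨g⁻¹ * k, by simp only [← hk, mul_smul]⟩⟩
        left_inv := fun x => by simp
        right_inv := fun y => by simp }
  have h2 : ∀ x : orbit G a, Nat.card {S : orbit G A // x.1 ∈ S.1} =
      Nat.card {S : orbit G A // a ∈ S.1} := by
    rintro ⟨_, g, rfl⟩
    refine (Nat.card_congr (Equiv.subtypeEquiv (MulAction.toPerm g) fun S => ?_)).symm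
    show a ∈ S.1 ↔ g • a ∈ (g • S : orbit G A).1
    rw [orbit.coe_smul, AddSubgroup.smul_mem_pointwise_smul_iff]
  have e : (Σ S : orbit G A, {x : orbit G a // x.1 ∈ S.1}) ≃
      Σ x : orbit G a, {S : orbit G A // x.1 ∈ S.1} :=
    { toFun := fun p => ⟨p.2.1, p.1, p.2.2⟩
      invFun := fun p => ⟨p.2.1, p.1, p.2.2⟩
      left_inv := fun p => rfl
      right_inv := fun p => rfl }
  have := Nat.card_congr e
  rwa [Nat.card_sigma, Nat.card_sigma, Finset.sum_congr rfl fun S _ => h1 S,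
    Finset.sum_congr rfl fun x _ => h2 x, Finset.sum_const, Finset.sum_const, Finset.card_univ,
    Finset.card_univ, smul_eq_mul, smul_eq_mul, ← Nat.card_eq_fintype_card,
    ← Nat.card_eq_fintype_card, Nat.card_coe_set_eq (orbit G a)] at this

lemma zero_notMem_orbit {a : W} (ha : a ≠ 0) : (0 : W) ∉ orbit G a := by
  rintro ⟨g, hg⟩
  exact ha (smul_eq_zero_iff_eq g |>.mp hg)

lemma card_add_one (A : AddSubgroup W) : ((A : Set W) \ {0}).ncard + 1 = Nat.card A := by
  rw [Set.ncard_sdiff_singleton_add_one A.zero_mem (Set.toFinite _), ← Nat.card_coe_set_eq]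
  rfl

/-- One orbit bounds the number of translates. -/
theorem orbit_le_cover (A : AddSubgroup W) {a : W} (ha : a ∈ A) (ha0 : a ≠ 0) :
    (orbit G a).ncard ≤ Nat.card (orbit G A) * (Nat.card A - 1) := by
  obtain ⟨m, hm, he⟩ := cover (G := G) A a
  have h : ((A : Set W) ∩ orbit G a).ncard ≤ ((A : Set W) \ {0}).ncard :=
    Set.ncard_le_ncard (fun x hx => ⟨hx.1, fun h0 => zero_notMem_orbit ha0 (h0 ▸ hx.2)⟩)
  have := card_add_one A
  calc (orbit G a).ncard ≤ (orbit G a).ncard * m := Nat.le_mul_of_pos_right _ (hm ha)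
    _ = _ := he.symm
    _ ≤ _ := Nat.mul_le_mul_left _ (by omega)

/-- Two orbits bound the number of translates. -/
theorem two_orbits_le_cover (A : AddSubgroup W) {a b : W} (ha : a ∈ A) (ha0 : a ≠ 0) (hb : b ∈ A)
    (hb0 : b ≠ 0) (hab : b ∉ orbit G a) :
    (orbit G a).ncard + (orbit G b).ncard ≤ Nat.card (orbit G A) * (Nat.card A - 1) := by
  obtain ⟨m, hm, he⟩ := cover (G := G) A a
  obtain ⟨m', hm', he'⟩ := cover (G := G) A b
  have hd : Disjoint ((A : Set W) ∩ orbit G a) ((A : Set W) ∩ orbit G b) := by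
    rw [Set.disjoint_left]
    rintro x ⟨-, hx⟩ ⟨-, hx'⟩
    exact hab (by rw [← orbit_eq_iff.mpr hx, orbit_eq_iff.mpr hx']; exact mem_orbit_self b)
  have hu := Set.ncard_union_eq hd
  have h : (((A : Set W) ∩ orbit G a) ∪ ((A : Set W) ∩ orbit G b)).ncard ≤
      ((A : Set W) \ {0}).ncard :=
    Set.ncard_le_ncard (by
      rintro x (⟨h1, h2⟩ | ⟨h1, h2⟩)
      · exact ⟨h1, fun h0 => zero_notMem_orbit ha0 (h0 ▸ h2)⟩
      · exact ⟨h1, fun h0 => zero_notMem_orbit hb0 (h0 ▸ h2)⟩)
  have := card_add_one A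
  have h1 : (orbit G a).ncard ≤ (orbit G a).ncard * m := Nat.le_mul_of_pos_right _ (hm ha)
  have h2 : (orbit G b).ncard ≤ (orbit G b).ncard * m' := Nat.le_mul_of_pos_right _ (hm' hb)
  rw [← he] at h1
  rw [← he'] at h2
  have h3 : Nat.card (orbit G A) * (((A : Set W) ∩ orbit G a).ncard + ((A : Set W) ∩ orbit G b).ncard)
      ≤ Nat.card (orbit G A) * (Nat.card A - 1) := Nat.mul_le_mul_left _ (by omega)
  rw [mul_add] at h3
  omega

/-- When all non-zero vectors lie in one orbit the count is exact. -/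
theorem cover_exact (A : AddSubgroup W) {a : W} (ha : a ∈ A) (ha0 : a ≠ 0)
    (hall : ∀ x ∈ A, x ≠ 0 → x ∈ orbit G a) :
    ∃ m, 1 ≤ m ∧ Nat.card (orbit G A) * (Nat.card A - 1) = (orbit G a).ncard * m := by
  obtain ⟨m, hm, he⟩ := cover (G := G) A a
  refine ⟨m, hm ha, ?_⟩
  rw [← he]
  congr 1
  have h : ((A : Set W) ∩ orbit G a) = (A : Set W) \ {0} := Set.ext fun x =>
    ⟨fun hx => ⟨hx.1, fun h0 => zero_notMem_orbit ha0 (h0 ▸ hx.2)⟩,
      fun hx => ⟨hx.1, hall x hx.1 hx.2⟩⟩
  rw [h, ← card_add_one A, Nat.add_sub_cancel]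

/-- A common divisor of the orbit sizes divides the number of incidences. -/
theorem dvd_cover (A : AddSubgroup W) (D : ℕ)
    (hD : ∀ a ∈ A, a ≠ 0 → D ∣ (orbit G a).ncard) :
    D ∣ Nat.card (orbit G A) * (Nat.card A - 1) := by
  classical
  have := Fintype.ofFinite W
  set s := Finset.univ.filter fun x : W => x ∈ A ∧ x ≠ 0 with hs
  have hcard : s.card = Nat.card A - 1 := by
    rw [← card_add_one A, Nat.add_sub_cancel, ← Set.ncard_coe_finset]
    congr 1
    ext x
    simp [hs]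
  rw [← hcard, Finset.card_eq_sum_card_fiberwise (f := fun x => orbit G x) (t := s.image fun x => orbit G x)
    (fun x hx => Finset.mem_image_of_mem _ hx), Finset.mul_sum]
  refine Finset.dvd_sum fun O hO => ?_
  obtain ⟨a, ha, rfl⟩ := Finset.mem_image.mp hO
  obtain ⟨haA, ha0⟩ := (Finset.mem_filter.mp ha).2
  obtain ⟨m, -, he⟩ := cover (G := G) A a
  have h : (s.filter fun x => orbit G x = orbit G a).card = ((A : Set W) ∩ orbit G a).ncard := by
    rw [← Set.ncard_coe_finset]
    congr 1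
    ext x
    simp only [hs, Finset.coe_filter, Finset.mem_filter, Finset.mem_univ, true_and, Set.mem_setOf_eq,
      Set.mem_inter_iff, SetLike.mem_coe, orbit_eq_iff]
    exact ⟨fun hx => ⟨hx.1.1, hx.2⟩,
      fun hx => ⟨⟨hx.1, fun h0 => zero_notMem_orbit ha0 (h0 ▸ hx.2)⟩, hx.2⟩⟩
  rw [h, he]
  exact (hD a haA ha0).mul_right m

end Cfsg.Agent.H2.MinU
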