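import Cfsg.Agent.H2.MinU.High
import Cfsg.Agent.H2.MinU.Four.Final

/-!
The minimal index of `PSU n` for even `n ≥ 6`, `q ≥ 3`.
-/

set_option autoImplicit false

namespace Cfsg.Agent.H2.MinU

open Matrix MulAction
open scoped Pointwise

variable {F : Type*} [Field F] [Fintype F] {q : ℕ}

local notation "⟪" u ", " v "⟫" => Cfsg.hermForm _ F q u v

/-- No group strictly between `q ^ 2` and `q ^ 3` divides the count of one class of vectors. -/
lemma no_single_class {p f j : ℕ} (hp : 2 ≤ p) (hj1 : 2 * f < j) (hj2 : j < 3 * f) :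
    ¬ p ^ j - 1 ∣ (p ^ (4 * f) - 1) * (p ^ (3 * f) + 1) := by
  intro h
  have hhalf : ∀ a b : ℕ, j = 2 * f + b + 1 → ¬ j ∣ a → 2 * j.gcd a ≤ j := by
    intro a b hb hna
    obtain ⟨t, ht⟩ := Nat.gcd_dvd_left j a
    rcases t with _ | _ | t
    · omega
    · exact absurd (by rw [ht, Nat.zero_add, mul_one]; exact Nat.gcd_dvd_right j a) hna
    · calc 2 * j.gcd a ≤ (t + 1 + 1) * j.gcd a := Nat.mul_le_mul_right _ (by omega)
        _ = j := by rw [mul_comm, ← ht]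
  obtain ⟨b, hb⟩ : ∃ b, j = 2 * f + b + 1 := ⟨j - 2 * f - 1, by omega⟩
  have hn4 : ¬ j ∣ 4 * f := by
    rintro ⟨c, hc⟩
    rcases c with _ | _ | c
    · omega
    · omega
    · have : j * 2 ≤ j * (c + 1 + 1) := Nat.mul_le_mul_left j (by omega)
      omega
  have hn6 : ¬ j ∣ 6 * f := by
    rintro ⟨c, hc⟩
    rcases c with _ | _ | _ | c
    · omega
    · omega
    · omega
    · have : j * 3 ≤ j * (c + 1 + 1 + 1) := Nat.mul_le_mul_left j (by omega)
      omega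
  set g := j.gcd (4 * f)
  set e := j.gcd (6 * f)
  have hg : 2 * g ≤ j := hhalf _ b hb hn4
  have he : 2 * e ≤ j := hhalf _ b hb hn6
  have hg1 : 1 ≤ g := Nat.gcd_pos_of_pos_left _ (by omega)
  have he1 : 1 ≤ e := Nat.gcd_pos_of_pos_left _ (by omega)
  have h36 : p ^ (3 * f) + 1 ∣ p ^ (6 * f) - 1 := ⟨p ^ (3 * f) - 1, by
    rw [← Nat.sq_sub_sq, one_pow, ← pow_mul]; ring_nf⟩
  have h1 : p ^ j - 1 ∣ (p ^ g - 1) * (p ^ e - 1) := by
    have := Nat.dvd_gcd dvd_rfl h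
    refine (this.trans (Nat.gcd_mul_right_dvd_mul_gcd _ _ _)).trans (mul_dvd_mul ?_ ?_)
    · rw [Nat.pow_sub_one_gcd_pow_sub_one]
    · rw [← Nat.pow_sub_one_gcd_pow_sub_one]
      exact Nat.gcd_dvd_gcd_of_dvd_right _ h36
  have hpg : 1 < p ^ g := Nat.one_lt_pow (by omega) (by omega)
  have hpe : 1 < p ^ e := Nat.one_lt_pow (by omega) (by omega)
  have h2 := Nat.le_of_dvd (Nat.mul_pos (by omega) (by omega)) h1
  have h3 : p ^ g * p ^ e ≤ p ^ j := by
    rw [← pow_add]; exact Nat.pow_le_pow_right (by omega) (by omega)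
  have h4 : (p ^ g - 1) * (p ^ e - 1) + (p ^ g + p ^ e) = p ^ g * p ^ e + 1 := by
    zify [hpg.le, hpe.le]; ring
  omega

variable (hF : Fintype.card F = q ^ 2)
include hF

/-- The translates of a mid-sized subgroup in dimension four. -/
theorem big_four (hq : 3 ≤ q) (hM : ∀ H : Subgroup (Cfsg.SU 4 F q), H ≠ ⊤ → L4 q ≤ H.index)
    (C : AddSubgroup (Fin 4 → F)) (h0 : C ≠ ⊥) (h1 : C ≠ ⊤) (hC : q ^ 2 ≤ Nat.card C) :
    q ^ 2 * pts q 4 ≤ Nat.card (orbit (Cfsg.SU 4 F q) C) * Nat.card C := by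
  classical
  have hk := le_card_orbit hF (m := 4) (by norm_num) hM h0 h1
  set k := Nat.card (orbit (Cfsg.SU 4 F q) C) with hkdef
  set c := Nat.card C with hcdef
  rw [pts_four]
  rcases le_or_gt (q ^ 3) c with h3 | h3
  · refine le_trans ?_ (Nat.mul_le_mul hk h3)
    rw [L4]
    calc q ^ 2 * ((q ^ 2 + 1) * (q ^ 3 + 1)) ≤ q ^ 2 * ((q * (q + 1)) * (q ^ 3 + 1)) :=
          Nat.mul_le_mul_left _ (Nat.mul_le_mul_right _ (by nlinarith))
      _ = _ := by ring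
  have hiso : ∀ v : Fin 4 → F, v ≠ 0 → ⟪v, v⟫ = 0 →
      (orbit (Cfsg.SU 4 F q) v).ncard = (q ^ 2 - 1) * ((q ^ 2 + 1) * (q ^ 3 + 1)) := fun v hv hv' => by
    rw [card_orbit_iso hF (by norm_num) hv hv', pts_four]
  have hnon : ∀ v : Fin 4 → F, ⟪v, v⟫ ≠ 0 →
      (orbit (Cfsg.SU 4 F q) v).ncard = q ^ 3 * (q ^ 4 - 1) := fun v hv => by
    rw [card_orbit_noniso hF (k := 3) (by norm_num) hv, if_neg (by decide)]
  have hc1 : 1 ≤ c := Nat.card_pos
  have hq4 : 1 ≤ q ^ 4 := Nat.one_le_pow _ _ (by omega)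
  have hq2 : 1 ≤ q ^ 2 := Nat.one_le_pow _ _ (by omega)
  have hq24 : (q ^ 2 - 1) * (q ^ 2 + 1) = q ^ 4 - 1 := by zify [hq2, hq4]; ring
  by_cases htwo : ∃ a ∈ C, ∃ b ∈ C, a ≠ 0 ∧ b ≠ 0 ∧ ⟪a, a⟫ ≠ ⟪b, b⟫
  · obtain ⟨a, ha, b, hb, ha0, hb0, hab⟩ := htwo
    have hnot : b ∉ orbit (Cfsg.SU 4 F q) a := by
      rintro ⟨g, rfl⟩
      exact hab (form_act g a a).symm
    have h := two_orbits_le_cover (G := Cfsg.SU 4 F q) C ha ha0 hb hb0 hnot
    have hlow : ∀ v : Fin 4 → F, v ≠ 0 →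
        q ^ 3 * (q ^ 4 - 1) ≤ (orbit (Cfsg.SU 4 F q) v).ncard := by
      intro v hv
      by_cases hv' : ⟪v, v⟫ = 0
      · rw [hiso v hv hv', ← mul_assoc, hq24, mul_comm]
        exact Nat.mul_le_mul_left _ (Nat.le_succ _)
      · exact (hnon v hv').ge
    have := hlow a ha0
    have := hlow b hb0
    calc q ^ 2 * ((q ^ 2 + 1) * (q ^ 3 + 1)) ≤ q ^ 2 * ((q ^ 2 + 1) * (2 * q * (q ^ 2 - 1))) := by
          refine Nat.mul_le_mul_left _ (Nat.mul_le_mul_left _ ?_)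
          zify [hq2] at hq ⊢
          nlinarith [mul_le_mul_of_nonneg_right (pow_le_pow_left₀ (by norm_num) (hq : (3 : ℤ) ≤ q) 2)
            (show (0 : ℤ) ≤ q by positivity)]
      _ = 2 * (q ^ 3 * (q ^ 4 - 1)) := by rw [← hq24]; ring
      _ ≤ k * (c - 1) := le_trans (by omega) h
      _ ≤ k * c := Nat.mul_le_mul_left _ (Nat.sub_le _ _)
  push Not at htwo
  obtain ⟨a, ha, ha0⟩ : ∃ a ∈ C, a ≠ 0 := by
    by_contra h; push Not at h; exact h0 (eq_bot_iff.mpr fun a ha => by simp [h a ha])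
  have ha' : ⟪a, a⟫ = 0 := by
    by_contra hne
    -- a group cannot have a single non-zero value
    have hT : ∀ x ∈ C, ∀ y ∈ C, x ≠ 0 → y ≠ 0 → x + y ≠ 0 → ⟪x, y⟫ + ⟪y, x⟫ = -⟪a, a⟫ := by
      intro x hx y hy hx0 hy0 hxy
      have e := htwo _ (C.add_mem hx hy) a ha hxy ha0
      rw [hadd_l hF, hadd_r hF, hadd_r hF, htwo x hx a ha hx0 ha0, htwo y hy a ha hy0 ha0] at e
      linear_combination e
    obtain ⟨y, hy, hy'⟩ : ∃ y ∈ C, y ∉ ({0, -a} : Set (Fin 4 → F)) := by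
      by_contra hcon
      push Not at hcon
      have h := Set.ncard_le_ncard (hcon : (C : Set (Fin 4 → F)) ⊆ {0, -a}) (Set.toFinite _)
      have h2 : ({0, -a} : Set (Fin 4 → F)).ncard ≤ 2 :=
        (Set.ncard_insert_le _ _).trans (by rw [Set.ncard_singleton])
      rw [← Nat.card_coe_set_eq (C : Set (Fin 4 → F))] at h
      have : 9 ≤ q ^ 2 := Nat.pow_le_pow_left hq 2
      change c ≤ _ at h
      omega
    obtain ⟨z, hz, hz'⟩ : ∃ z ∈ C, z ∉ ({0, -a, -y, -a - y} : Set (Fin 4 → F)) := by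
      by_contra hcon
      push Not at hcon
      have h := Set.ncard_le_ncard (hcon : (C : Set (Fin 4 → F)) ⊆ {0, -a, -y, -a - y}) (Set.toFinite _)
      have h2 : ({0, -a, -y, -a - y} : Set (Fin 4 → F)).ncard ≤ 4 := by
        refine (Set.ncard_insert_le _ _).trans ?_
        refine (Nat.add_le_add_right (Set.ncard_insert_le _ _) _).trans ?_
        refine (Nat.add_le_add_right (Nat.add_le_add_right (Set.ncard_insert_le _ _) _) _).trans ?_
        rw [Set.ncard_singleton]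
      rw [← Nat.card_coe_set_eq (C : Set (Fin 4 → F))] at h
      have : 9 ≤ q ^ 2 := Nat.pow_le_pow_left hq 2
      change c ≤ _ at h
      omega
    simp only [Set.mem_insert_iff, Set.mem_singleton_iff, not_or] at hy' hz'
    obtain ⟨hy0, hya⟩ := hy'
    obtain ⟨hz0, hza, hzy, hzay⟩ := hz'
    have e1 := hT a ha y hy ha0 hy0 fun h => hya (eq_neg_of_add_eq_zero_right h)
    have e2 := hT a ha z hz ha0 hz0 fun h => hza (eq_neg_of_add_eq_zero_right h)
    have e3 := hT a ha (y + z) (C.add_mem hy hz) ha0 (fun h => hzy (eq_neg_of_add_eq_zero_right h))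
      fun h => hzay (by rw [← add_assoc] at h; rw [eq_neg_of_add_eq_zero_right h]; abel)
    rw [hadd_l hF, hadd_r hF] at e3
    exact hne (by linear_combination -e3 + e1 + e2)
  have hall : ∀ x ∈ C, x ≠ 0 → x ∈ orbit (Cfsg.SU 4 F q) a := fun x hx hx0 => by
    rw [orbit_eq_class hF (by norm_num) ha0 (Or.inr (by norm_num))]
    exact ⟨hx0, htwo x hx a ha hx0 ha0⟩
  obtain ⟨m, hm, he⟩ := cover_exact (G := Cfsg.SU 4 F q) C ha ha0 hall
  rw [hiso a ha0 ha'] at he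
  rcases hC.eq_or_lt with heq | hlt
  · have h : (q ^ 2 - 1) * ((q ^ 2 + 1) * (q ^ 3 + 1)) ≤ (q ^ 2 - 1) * k := by
      rw [mul_comm _ k]
      calc _ ≤ (q ^ 2 - 1) * ((q ^ 2 + 1) * (q ^ 3 + 1)) * m := Nat.le_mul_of_pos_right _ hm
        _ = k * (c - 1) := he.symm
        _ = _ := by rw [heq]
    have h' := Nat.le_of_mul_le_mul_left h (by have := Nat.pow_le_pow_left hq 2; omega)
    rw [← heq, mul_comm k]
    exact Nat.mul_le_mul_left _ h'
  rcases Nat.lt_or_ge m 2 with hm2 | hm2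
  · exfalso
    obtain rfl : m = 1 := by omega
    obtain ⟨p, f, hp, hch, -, hpq⟩ := H3.exists_q_eq_pow hF
    have hdvd : c ∣ Nat.card (Fin 4 → F) := AddSubgroup.card_addSubgroup_dvd_card C
    rw [show Nat.card (Fin 4 → F) = p ^ (f * 2 * 4) by simp [hF, hpq, ← pow_mul]] at hdvd
    obtain ⟨j, -, hj⟩ := (Nat.dvd_prime_pow hp).mp hdvd
    rw [hj, hpq, ← pow_mul] at hlt h3
    have hj1 := (Nat.pow_lt_pow_iff_right hp.one_lt).mp hlt
    have hj2 := (Nat.pow_lt_pow_iff_right hp.one_lt).mp h3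
    refine no_single_class hp.two_le (f := f) (j := j) (by omega) (by omega) ⟨k, ?_⟩
    change k * (c - 1) = _ at he
    rw [mul_one, ← mul_assoc, hq24, hj, hpq, ← pow_mul, ← pow_mul, mul_comm f 4, mul_comm f 3] at he
    rw [← he, mul_comm]
  · calc q ^ 2 * ((q ^ 2 + 1) * (q ^ 3 + 1))
        ≤ (q ^ 2 - 1) * ((q ^ 2 + 1) * (q ^ 3 + 1)) * 2 := by
          rw [mul_comm ((q ^ 2 - 1) * _) 2, ← mul_assoc 2]
          refine Nat.mul_le_mul_right _ ?_
          have := Nat.pow_le_pow_left hq 2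
          omega
      _ ≤ (q ^ 2 - 1) * ((q ^ 2 + 1) * (q ^ 3 + 1)) * m := Nat.mul_le_mul_left _ hm2
      _ = k * (c - 1) := he.symm
      _ ≤ k * c := Nat.mul_le_mul_left _ (Nat.sub_le _ _)

/-- The lower bound in even dimension. -/
theorem su_even_bound (hq : 3 ≤ q) : ∀ j : ℕ,
    ∀ H : Subgroup (Cfsg.SU (2 + (4 + 2 * j)) F q), H ≠ ⊤ → pts q (2 + (4 + 2 * j)) ≤ H.index := by
  obtain ⟨D⟩ := exists_dat hF
  have hqz : (3 : ℤ) ≤ q := by exact_mod_cast hq
  intro j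
  induction j with
  | zero =>
    have hM : ∀ H : Subgroup (Cfsg.SU 4 F q), H ≠ ⊤ → L4 q ≤ H.index := fun H hH =>
      four_bound D (Ω := Cfsg.SU (2 + 2) F q ⧸ H) (Subgroup.one_lt_index_of_ne_top hH)
    refine high_step hF (m := 4) le_rfl (fun h => absurd h (by omega)) hM ?_ ?_
      (big_four hF hq hM)
    · rw [show pts q (2 + 4) = 1 + q ^ 2 * pts q 4 + q ^ 9 from pts_succ_succ q 4, pts_four, L4]
      have h1 : q ^ 2 * ((q ^ 2 + 1) * (q ^ 3 + 1)) + 1 ≤ q ^ 8 := by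
        have h : q ^ 2 * pts q 4 + 2 ≤ q ^ (2 * 4) := pts_small (by omega) 4 (by norm_num)
        rw [pts_four, show 2 * 4 = 8 from rfl] at h
        omega
      have h2 : (q + 1) * (q ^ 3 + 1) * q ^ (4 + 1) = q ^ 9 + q ^ 8 + q ^ 6 + q ^ 5 := by ring
      omega
    · rw [L4]
      have : 1 ≤ q ^ 2 := Nat.one_le_pow _ _ (by omega)
      zify [this]
      have h1 := mul_le_mul_of_nonneg_right hqz (pow_nonneg (by linarith : (0 : ℤ) ≤ q) 4)
      have h2 := mul_le_mul_of_nonneg_right hqz (by linarith : (0 : ℤ) ≤ q)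
      have h3 : ((q : ℤ) ^ 2 - 1) * ((q + 1) * (q ^ 3 + 1)) + 1 =
          q * q ^ 4 - q ^ 4 + q * q - q + q ^ (2 + 4) := by ring
      have h4 := pow_nonneg (by linarith : (0 : ℤ) ≤ q) 4
      linarith
  | succ j ih =>
    rw [show 4 + 2 * (j + 1) = 2 + (4 + 2 * j) by ring]
    refine high_step hF (m := 2 + (4 + 2 * j)) (by omega) (fun h => absurd h (by omega)) ih ?_ ?_ ?_
    · rw [add_comm 2 (2 + (4 + 2 * j)), pts_succ_succ]
      set n := 2 + (4 + 2 * j) with hn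
      have hP : pts q n = 1 + q ^ 2 * pts q (4 + 2 * j) + q ^ (2 * (4 + 2 * j) + 1) := by
        rw [hn, add_comm 2, pts_succ_succ]
      have hbig : q ^ (2 * (4 + 2 * j) + 1) + 1 ≤ pts q n := by omega
      have hsm := pts_small (show 2 ≤ q by omega) n (by omega)
      calc 1 + q ^ 2 * pts q n + q ^ (2 * n + 1) ≤ q ^ (2 * n) + q ^ (2 * n + 1) := by omega
        _ ≤ (q ^ (2 * (4 + 2 * j) + 1) + 1) * q ^ (n + 1) := by
          rw [add_mul, one_mul, ← pow_add]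
          have h1 : q ^ (2 * n + 1) ≤ q ^ (2 * (4 + 2 * j) + 1 + (n + 1)) :=
            Nat.pow_le_pow_right (by omega) (by omega)
          have h2 : q ^ (2 * n) * q ≤ q ^ (2 * (4 + 2 * j) + 1 + (n + 1)) := by
            rw [← pow_succ]; exact h1
          have h3 : q ^ (2 * (4 + 2 * j) + 1 + (n + 1)) = q ^ (2 * (4 + 2 * j) + n + 2) := by ring
          have h4 : q ^ (2 * n + 1) * 3 ≤ q ^ (2 * (4 + 2 * j) + 1 + (n + 1)) := by
            refine le_trans (Nat.mul_le_mul_left _ hq) ?_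
            rw [← pow_succ]
            exact Nat.pow_le_pow_right (by omega) (by omega)
          have h5 : q ^ (2 * n) ≤ q ^ (2 * n + 1) := Nat.pow_le_pow_right (by omega) (by omega)
          omega
        _ ≤ _ := Nat.mul_le_mul_right _ hbig
    · set n := 2 + (4 + 2 * j) with hn
      have h1 : q ^ (2 + n) ≤ pts q n := by
        rw [show pts q n = 1 + q ^ 2 * pts q (4 + 2 * j) + q ^ (2 * (4 + 2 * j) + 1) by
          rw [hn, add_comm 2, pts_succ_succ]]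
        have : q ^ (2 + n) ≤ q ^ (2 * (4 + 2 * j) + 1) := Nat.pow_le_pow_right (by omega) (by omega)
        omega
      refine h1.trans ((Nat.le_mul_of_pos_left _ ?_).trans (Nat.le_succ _))
      have := Nat.pow_le_pow_left hq 2
      omega
    · intro C h0 h1 hC
      rw [mul_comm (q ^ 2)]
      exact Nat.mul_le_mul (le_card_orbit hF (by omega) ih h0 h1) hC

/-- The minimal index of `PSU n` in even dimension at least `6`. -/
theorem psu_even_min (hq : 3 ≤ q) (n : ℕ) (hn : 6 ≤ n) (heven : Even n) :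
    (∀ H : Subgroup (Cfsg.PSU n F q), H ≠ ⊤ →
        (q ^ n - 1) * (q ^ (n - 1) + 1) / (q ^ 2 - 1) ≤ H.index) ∧
      ∃ H : Subgroup (Cfsg.PSU n F q),
        H.index = (q ^ n - 1) * (q ^ (n - 1) + 1) / (q ^ 2 - 1) := by
  obtain ⟨D⟩ := exists_dat hF
  obtain ⟨j, rfl⟩ : ∃ j, n = 2 + (4 + 2 * j) := by
    obtain ⟨a, rfl⟩ := heven
    exact ⟨a - 3, by omega⟩
  have e : (q ^ (2 + (4 + 2 * j)) - 1) * (q ^ (2 + (4 + 2 * j) - 1) + 1) / (q ^ 2 - 1) =
      pts q (2 + (4 + 2 * j)) := by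
    have h2 : 1 ≤ q ^ 2 := Nat.one_le_pow _ _ (by omega)
    refine Nat.div_eq_of_eq_mul_right (by have := Nat.pow_le_pow_left hq 2; omega) ?_
    have hP := pts_int q (5 + 2 * j)
    rw [show (2 + (4 + 2 * j)) - 1 = 5 + 2 * j by omega,
      show 2 + (4 + 2 * j) = 5 + 2 * j + 1 by ring]
    rw [
      (show Odd (5 + 2 * j) from ⟨2 + j, by ring⟩).neg_one_pow] at hP
    zify [h2, Nat.one_le_pow (5 + 2 * j + 1) q (by omega)]
    linear_combination -hP
  rw [e]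
  refine psu_min _ (su_even_bound hF hq j) ⟨pst D (4 + 2 * j), ?_, index_pst D (by omega)⟩
  intro g hg
  obtain ⟨l, hl⟩ := (H3.mem_center_SU_iff hF (by omega) g).mp hg
  refine ⟨l, fun h => act_ne_zero g D.p_ne ?_, hl _⟩
  show (g.1 : Matrix (Fin (2 + (4 + 2 * j))) (Fin (2 + (4 + 2 * j))) F) *ᵥ _ = 0
  rw [hl, h, zero_smul]

end Cfsg.Agent.H2.MinU
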