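import Cfsg.Agent.H2.MinU.Step

/-!
A point fixed by a whole radical forces at least as many points as there are isotropic points.
-/

set_option autoImplicit false

namespace Cfsg.Agent.H2.MinU

open Matrix MulAction
open scoped Pointwise

variable {F : Type*} [Field F] [Fintype F] {q m : ℕ}

local notation "⟪" u ", " v "⟫" => Cfsg.hermForm _ F q u v

variable {D : Dat F q} {Ω : Type*} [MulAction (Cfsg.SU (2 + m) F q) Ω]

/-- A fully fixed radical. -/
theorem allFix_of_aS_top {ω : Ω} (hω : ω ∈ fixT D m Ω) (hA : aS m D ω = ⊤) :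
    AllFix D.hF (D.p m) ω := by
  refine ⟨D.p_ne, D.p_iso, fun x a hx => ?_⟩
  have hxp : ⟪x, D.p m⟫ = 0 := hswap_zero D.hF hx.2.1
  have e0 : x = up (down x) + ⟪x, D.p' m⟫ • D.p m := by
    conv_lhs => rw [D.decomp x, hxp, zero_smul, add_zero, add_comm]
  rw [e0] at hx ⊢
  rw [E_shift D.hF hx]
  obtain ⟨b, hb, hfix⟩ := (hA ▸ AddSubgroup.mem_top (down x) : down x ∈ aS m D ω)
  set a' := a + ⟪x, D.p' m⟫ - ⟪x, D.p' m⟫ ^ q with ha'
  have hok : OkW q (down x) a' := by
    have h := hx.2.2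
    simp only [hadd_l D.hF, hadd_r D.hF, hsmul_l D.hF, hsmul_r D.hF, D.p_iso, D.up_p, D.p_up,
      mul_zero, add_zero, D.form_up] at h
    rw [OkW, ha', qsub D.hF, qadd D.hF, qq D.hF]
    linear_combination h
  have hz : (a' - b) + (a' - b) ^ q = 0 := okW_sub D.hF hok hb
  have e : El D (0 : Fin m → F) (a' - b) * El D (down x) b = El D (down x) a' := by
    rw [El_mul (okW_zero D.hF hz) hb, zero_add, hzero_r D.hF, sub_zero, sub_add_cancel]
  show El D (down x) a' • ω = ω
  rw [← e, mul_smul, hfix, El_trans]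
  exact mem_fixT.mp hω _ hz

variable [Finite Ω] [IsPretransitive (Cfsg.SU (2 + m) F q) Ω]

/-- The bound when some radical fixes a point, with the size of a totally isotropic subspace as a parameter. -/
theorem geom_bound_gen (hm : 2 ≤ m) {M R : ℕ} (e : ℕ) (he : ∀ d, 2 * d ≤ 2 + m → 2 * d ≤ e)
    (hM : ∀ A : AddSubgroup (Fin m → F), A ≠ ⊥ → (∀ a ∈ A, ⟪a, a⟫ = 0) →
      (∀ a ∈ A, ∀ c : F, c • a ∈ A) →
      M ≤ Nat.card (orbit (Cfsg.SU m F q) A))
    (hR1 : R ≤ pts q (2 + m))
    (hR : R * (q ^ e - 1) ≤ (q ^ 2 - 1) * pts q (2 + m) * M)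
    (hN2 : 2 ≤ Nat.card Ω) {p : Fin (2 + m) → F} {ω : Ω} (hp : AllFix D.hF p ω) :
    R ≤ Nat.card Ω := by
  classical
  have hq := H3.two_le_q D.hF
  let U : Ω → Submodule F (Fin (2 + m) → F) := fun w => Submodule.span F {x | AllFix D.hF x w}
  have hU : ∀ (g : Cfsg.SU (2 + m) F q) (w : Ω) x, x ∈ U w → act g x ∈ U (g • w) := by
    intro g w x hx
    have : U w ≤ (U (g • w)).comap (g.1 : Matrix (Fin (2 + m)) (Fin (2 + m)) F).toLin' :=
      Submodule.span_le.mpr fun y hy => Submodule.subset_span (AllFix.act D.hF hy g)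
    exact this hx
  have horth : ∀ (w : Ω) (a b : Fin (2 + m) → F), AllFix D.hF a w → AllFix D.hF b w → ⟪a, b⟫ = 0 := fun w a b ha hb => by
    by_contra h
    have := fix_all D.hF (by omega) (by omega) ha hb h
    omega
  have hti : ∀ (w : Ω), ∀ x ∈ U w, ∀ y ∈ U w, ⟪x, y⟫ = 0 := by
    intro w x hx y hy
    have hy' : ∀ a, AllFix D.hF a w → ⟪a, y⟫ = 0 := fun a ha => by
      induction hy using Submodule.span_induction with
      | mem b hb => exact horth w a b ha hb
      | zero => exact hzero_r D.hF a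
      | add _ _ _ _ h1 h2 => rw [hadd_r D.hF, h1, h2, add_zero]
      | smul c _ _ h1 => rw [hsmul_r D.hF, h1, mul_zero]
    induction hx using Submodule.span_induction with
    | mem a ha => exact hy' a ha
    | zero => exact hzero_l D.hF y
    | add _ _ _ _ h1 h2 => rw [hadd_l D.hF, h1, h2, add_zero]
    | smul c _ _ h1 => rw [hsmul_l D.hF, h1, mul_zero]
  set d := Module.finrank F (U ω) with hd
  have hcard : ∀ w, Nat.card (U w) = Nat.card (U ω) := fun w => by
    obtain ⟨g, rfl⟩ := exists_smul_eq (Cfsg.SU (2 + m) F q) ω w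
    refine (Nat.card_congr
      { toFun := fun x => ⟨act g x.1, hU g ω x.1 x.2⟩
        invFun := fun y => ⟨act g⁻¹ y.1, by
          have := hU g⁻¹ _ _ y.2
          rwa [inv_smul_smul] at this⟩
        left_inv := fun x => Subtype.ext (act_inv_act g x.1)
        right_inv := fun y => Subtype.ext (act_act_inv g y.1) }).symm
  have hUq : Nat.card (U ω) = q ^ (2 * d) := by
    rw [Module.natCard_eq_pow_finrank (K := F), Nat.card_eq_fintype_card, D.hF, ← pow_mul]
  have hd2 : 2 * d ≤ 2 + m := by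
    have := H98.Herm.ti_bound (H98.Herm.isUnitary_std D.hF) (U ω) (hti ω)
    rwa [Fintype.card_fin] at this
  -- vectors and translates
  let T : Set (Submodule F (Fin (2 + m) → F)) := Set.range U
  have : Finite T := Finite.of_surjective (Set.rangeFactorization U) Set.rangeFactorization_surjective
  have := Fintype.ofFinite T
  set V := {v : Fin (2 + m) → F | v ≠ 0 ∧ ⟪v, v⟫ = 0} with hV
  have hVc : V.ncard = (q ^ 2 - 1) * pts q (2 + m) := by
    rw [← card_orbit_iso D.hF (m := 2 + m) (by omega) D.p_ne D.p_iso,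
      orbit_eq_class D.hF (by omega) D.p_ne (Or.inr (by omega)), D.p_iso]
  have hinc : ∀ v ∈ V, Nat.card {S : T // v ∈ S.1} =
      Nat.card {S : T // D.p m ∈ S.1} := by
    intro v hv
    obtain ⟨g, hg⟩ : v ∈ orbit (Cfsg.SU (2 + m) F q) (D.p m) := by
      rw [orbit_eq_class D.hF (by omega) D.p_ne (Or.inr (by omega))]
      exact ⟨hv.1, hv.2.trans D.p_iso.symm⟩
    change act g (D.p m) = v at hg
    have hT : ∀ (g : Cfsg.SU (2 + m) F q) (S : T),
        S.1.map (g.1 : Matrix (Fin (2 + m)) (Fin (2 + m)) F).toLin' ∈ T := by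
      rintro g ⟨_, w, rfl⟩
      refine ⟨g • w, le_antisymm (fun y hy => ?_) ?_⟩
      · refine ⟨act g⁻¹ y, ?_, act_act_inv g y⟩
        have := hU g⁻¹ _ _ hy
        rwa [inv_smul_smul] at this
      · rintro _ ⟨x, hx, rfl⟩
        exact hU g w x hx
    have hmap : ∀ (g : Cfsg.SU (2 + m) F q) (S : Submodule F (Fin (2 + m) → F)) (x : Fin (2 + m) → F),
        act g x ∈ S.map (g.1 : Matrix (Fin (2 + m)) (Fin (2 + m)) F).toLin' ↔ x ∈ S := by
      intro g S x
      refine ⟨?_, fun h => ⟨x, h, rfl⟩⟩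
      rintro ⟨y, hy, hyx⟩
      exact act_injective g hyx ▸ hy
    have hmm : ∀ (g : Cfsg.SU (2 + m) F q) (S : Submodule F (Fin (2 + m) → F)),
        (S.map (g.1 : Matrix (Fin (2 + m)) (Fin (2 + m)) F).toLin').map
          ((g⁻¹).1 : Matrix (Fin (2 + m)) (Fin (2 + m)) F).toLin' = S := by
      intro g S
      ext x
      constructor
      · rintro ⟨_, ⟨y, hy, rfl⟩, rfl⟩
        show act g⁻¹ (act g y) ∈ S
        rw [act_inv_act]; exact hy
      · intro h
        exact ⟨_, ⟨x, h, rfl⟩, act_inv_act g x⟩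
    let f : {S : T // D.p m ∈ S.1} → {S : T // v ∈ S.1} :=
      fun S => ⟨⟨_, hT g S.1⟩, hg ▸ (hmap g _ _).mpr S.2⟩
    let f' : {S : T // v ∈ S.1} → {S : T // D.p m ∈ S.1} := fun S => ⟨⟨_, hT g⁻¹ S.1⟩, by
      have := (hmap g⁻¹ S.1.1 v).mpr S.2
      have e : act g⁻¹ v = D.p m := (congrArg (act g⁻¹) hg).symm.trans (act_inv_act g _)
      exact e ▸ this⟩
    refine (Nat.card_congr ⟨f, f', fun S => Subtype.ext (Subtype.ext (hmm g S.1.1)),
      fun S => Subtype.ext (Subtype.ext ?_)⟩).symm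
    have := hmm g⁻¹ S.1.1
    rwa [inv_inv] at this
  -- double counting
  have hcount : (q ^ 2 - 1) * pts q (2 + m) * Nat.card {S : T // D.p m ∈ S.1} ≤
      T.ncard * (q ^ (2 * d) - 1) := by
    have := Fintype.ofFinite V
    have e : (Σ v : V, {S : T // v.1 ∈ S.1}) ≃ Σ S : T, {v : V // v.1 ∈ S.1} :=
      { toFun := fun p => ⟨p.2.1, p.1, p.2.2⟩
        invFun := fun p => ⟨p.2.1, p.1, p.2.2⟩
        left_inv := fun p => rfl
        right_inv := fun p => rfl }
    have h1 := Nat.card_congr e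
    rw [Nat.card_sigma, Nat.card_sigma, Finset.sum_congr rfl fun v _ => hinc v.1 v.2, Finset.sum_const,
      Finset.card_univ, ← Nat.card_eq_fintype_card, Nat.card_coe_set_eq, hVc, smul_eq_mul] at h1
    rw [h1, ← Nat.card_coe_set_eq, Nat.card_eq_fintype_card, ← Finset.card_univ, ← smul_eq_mul]
    refine Finset.sum_le_card_nsmul _ _ _ fun S _ => ?_
    obtain ⟨w, hw⟩ := S.2
    rw [← hUq, ← hcard w, show Nat.card (U w) = Nat.card S.1 by rw [hw]]
    refine Nat.le_sub_one_of_lt ?_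
    let f : {v : V // v.1 ∈ S.1} → S.1 := fun v => ⟨v.1.1, v.2⟩
    have hf : Function.Injective f := fun a b h =>
      Subtype.ext (Subtype.ext (congrArg (fun x : S.1 => x.1) h))
    have := Fintype.ofFinite S.1
    have := Fintype.ofFinite {v : V // v.1 ∈ S.1}
    rw [Nat.card_eq_fintype_card, Nat.card_eq_fintype_card]
    refine Fintype.card_lt_of_injective_of_notMem f hf (b := ⟨0, S.1.zero_mem⟩) ?_
    rintro ⟨v, hv⟩
    exact v.1.2.1 (congrArg (fun x : S.1 => x.1) hv)
  have hTN : T.ncard ≤ Nat.card Ω := by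
    rw [← Nat.card_coe_set_eq]
    exact Nat.card_le_card_of_surjective (Set.rangeFactorization U) Set.rangeFactorization_surjective
  have hd1 : 1 ≤ d := by
    rw [hd, Nat.one_le_iff_ne_zero]
    intro h
    rw [Submodule.finrank_eq_zero] at h
    exact hp.1 ((Submodule.mem_bot F).mp (h ▸ Submodule.subset_span (show AllFix D.hF p ω from hp)))
  -- a translate through `p`
  obtain ⟨g, hg⟩ : D.p m ∈ orbit (Cfsg.SU (2 + m) F q) p := by
    rw [orbit_eq_class D.hF (by omega) hp.1 (Or.inr (by omega))]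
    exact ⟨D.p_ne, D.p_iso.trans hp.2.1.symm⟩
  change act g p = D.p m at hg
  set U₀ := U (g • ω) with hU₀
  have hpU : D.p m ∈ U₀ := hg ▸ hU g ω p (Submodule.subset_span (show AllFix D.hF p ω from hp))
  have hT₀ : U₀ ∈ T := ⟨g • ω, rfl⟩
  have hP0 : 1 ≤ (q ^ 2 - 1) * pts q (2 + m) := by
    rw [← hVc]
    exact (Set.ncard_pos (Set.toFinite _)).mpr ⟨D.p m, D.p_ne, D.p_iso⟩
  rcases Nat.eq_or_lt_of_le hd1 with hd1' | hd2'
  · have ha : 1 ≤ Nat.card {S : T // D.p m ∈ S.1} := by
      have : Nonempty {S : T // D.p m ∈ S.1} := ⟨⟨⟨U₀, hT₀⟩, hpU⟩⟩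
      exact Nat.card_pos
    rw [← hd1', mul_one] at hcount
    have h1 : (q ^ 2 - 1) * pts q (2 + m) ≤ (q ^ 2 - 1) * T.ncard :=
      (Nat.le_mul_of_pos_right _ ha).trans (hcount.trans_eq (Nat.mul_comm _ _))
    have h4 : 0 < q ^ 2 - 1 := by
      have : 2 ^ 2 ≤ q ^ 2 := Nat.pow_le_pow_left hq 2
      omega
    exact hR1.trans ((Nat.le_of_mul_le_mul_left h1 h4).trans hTN)
  · let B : AddSubgroup (Fin m → F) :=
      (U₀.comap (up : (Fin m → F) →ₗ[F] (Fin (2 + m) → F))).toAddSubgroup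
    have hB : ∀ w, w ∈ B ↔ up w ∈ U₀ := fun w => Iff.rfl
    have hBiso : ∀ w ∈ B, ⟪w, w⟫ = 0 := fun w hw => by
      rw [← D.form_up]; exact hti _ _ hw _ hw
    have hB0 : B ≠ ⊥ := by
      intro h
      have hle : U₀ ≤ Submodule.span F {D.p m} := fun x hx => by
        have hxp : ⟪x, D.p m⟫ = 0 := hti _ _ hx _ hpU
        have e0 : x = up (down x) + ⟪x, D.p' m⟫ • D.p m := by
          conv_lhs => rw [D.decomp x, hxp, zero_smul, add_zero, add_comm]
        have h1 : down x ∈ B := by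
          rw [hB]
          have := U₀.sub_mem hx (U₀.smul_mem ⟪x, D.p' m⟫ hpU)
          rwa [sub_eq_iff_eq_add.mpr e0] at this
        rw [h, AddSubgroup.mem_bot] at h1
        rw [e0, h1, map_zero, zero_add]
        exact Submodule.smul_mem _ _ (Submodule.mem_span_singleton_self _)
      have h2 := Submodule.finrank_mono hle
      rw [finrank_span_singleton D.p_ne] at h2
      have h3 : Nat.card U₀ = q ^ (2 * d) := by rw [hcard (g • ω), hUq]
      rw [Module.natCard_eq_pow_finrank (K := F), Nat.card_eq_fintype_card, D.hF, ← pow_mul] at h3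
      have := Nat.pow_right_injective hq h3
      omega
    have ha : M ≤ Nat.card {S : T // D.p m ∈ S.1} := by
      refine le_trans (hM B hB0 hBiso fun a ha c => ?_) ?_
      · rw [hB, map_smul]; exact U₀.smul_mem c ((hB a).mp ha)
      have : Finite (AddSubgroup (Fin m → F)) := Finite.of_injective _ SetLike.coe_injective
      let φ : {S : T // D.p m ∈ S.1} → AddSubgroup (Fin m → F) :=
        fun S => (S.1.1.comap (up : (Fin m → F) →ₗ[F] (Fin (2 + m) → F))).toAddSubgroup
      have hsub : orbit (Cfsg.SU m F q) B ⊆ Set.range φ := by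
        rintro _ ⟨l, rfl⟩
        refine ⟨⟨⟨U (incl l • g • ω), _, rfl⟩, ?_⟩, ?_⟩
        · have h := hU (incl l) (g • ω) _ hpU
          rwa [act_incl_p] at h
        · ext w
          show up w ∈ U (incl l • g • ω) ↔ w ∈ l • B
          refine Iff.trans ?_ (AddSubgroup.mem_pointwise_smul_iff_inv_smul_mem (a := l)).symm
          rw [hB, smul_eq_act, ← act_incl_up, map_inv]
          constructor
          · intro h
            have := hU (incl l)⁻¹ _ _ h
            rwa [inv_smul_smul] at this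
          · intro h
            have := hU (incl l) _ _ h
            rwa [act_act_inv] at this
      rw [← Nat.card_coe_set_eq] at *
      exact (Nat.card_mono (Set.toFinite _) hsub).trans
        (Nat.card_le_card_of_surjective (Set.rangeFactorization φ) Set.rangeFactorization_surjective)
    have hde : 2 * d ≤ e := he d hd2
    have h2 : q ^ (2 * d) ≤ q ^ e := Nat.pow_le_pow_right (by omega) hde
    have h3 : (q ^ 2 - 1) * pts q (2 + m) * M ≤ Nat.card Ω * (q ^ e - 1) :=
      calc _ ≤ (q ^ 2 - 1) * pts q (2 + m) * Nat.card {S : T // D.p m ∈ S.1} := Nat.mul_le_mul_left _ ha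
        _ ≤ _ := hcount
        _ ≤ _ := Nat.mul_le_mul hTN (by omega)
    have h4 : 0 < q ^ e - 1 := by
      have : 2 ^ e ≤ q ^ e := Nat.pow_le_pow_left hq _
      have : 1 < 2 ^ e := Nat.one_lt_two_pow (by omega)
      omega
    exact Nat.le_of_mul_le_mul_right (hR.trans h3) h4

/-- The bound when some radical fixes a point. -/
theorem geom_bound (hm : 2 ≤ m) {M R : ℕ}
    (hM : ∀ A : AddSubgroup (Fin m → F), A ≠ ⊥ → (∀ a ∈ A, ⟪a, a⟫ = 0) →
      (∀ a ∈ A, ∀ c : F, c • a ∈ A) →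
      M ≤ Nat.card (orbit (Cfsg.SU m F q) A))
    (hR1 : R ≤ pts q (2 + m))
    (hR : R * (q ^ (2 + m) - 1) ≤ (q ^ 2 - 1) * pts q (2 + m) * M)
    (hN2 : 2 ≤ Nat.card Ω) {p : Fin (2 + m) → F} {ω : Ω} (hp : AllFix D.hF p ω) :
    R ≤ Nat.card Ω :=
  geom_bound_gen (D := D) hm (2 + m) (fun _ h => h) hM hR1 hR hN2 hp

end Cfsg.Agent.H2.MinU
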