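import Cfsg.Agent.H2.MinU.Basic
import Cfsg.Agent.H2.MinU.Count

/-!
The hyperbolic plane in the first two coordinates, the embedding of `SU m` on its orthogonal, and the
Levi subgroup of the stabiliser of a point.
-/

set_option autoImplicit false

namespace Cfsg.Agent.H2.MinU

open Matrix

variable {F : Type*} [Field F] [Fintype F] {q m : ℕ}

local notation "⟪" u ", " v "⟫" => Cfsg.hermForm _ F q u v

/-- A hyperbolic basis of the unitary plane. -/
structure Dat (F : Type*) [Field F] [Fintype F] (q : ℕ) where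
  hF : Fintype.card F = q ^ 2
  e : Fin 2 → F
  e' : Fin 2 → F
  e_iso : Cfsg.hermForm 2 F q e e = 0
  e'_iso : Cfsg.hermForm 2 F q e' e' = 0
  pair : Cfsg.hermForm 2 F q e e' = 1

theorem exists_dat (hF : Fintype.card F = q ^ 2) : Nonempty (Dat F q) := by
  obtain ⟨e, he, hne⟩ := H3.exists_isotropic hF (n := 2) le_rfl
  obtain ⟨y, hy⟩ := H3.exists_hermForm_eq_one hF he
  obtain ⟨e', -, h1, h2, -⟩ := H98.Herm.partner_in (H98.Herm.isUnitary_std hF) (U := ⊤) (e := e) (y := y)
    Submodule.mem_top Submodule.mem_top hne (fun h => one_ne_zero (α := F) (by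
      rw [← hy]; exact hswap_zero hF h))
  exact ⟨⟨hF, e, e', hne, h1, h2⟩⟩

variable (D : Dat F q)

namespace Dat

/-- The isotropic vector of the first plane. -/
def p (m : ℕ) : Fin (2 + m) → F := Fin.append D.e 0

/-- Its partner. -/
def p' (m : ℕ) : Fin (2 + m) → F := Fin.append D.e' 0

lemma pair' : Cfsg.hermForm 2 F q D.e' D.e = 1 := by rw [← hswap D.hF, D.pair, one_pow]

lemma e_ne : D.e ≠ 0 := fun h => one_ne_zero (α := F) (by rw [← D.pair, h, hzero_l D.hF])

lemma p_iso : ⟪D.p m, D.p m⟫ = 0 := by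
  rw [Dat.p, H3.hermForm_append, D.e_iso, hzero_l D.hF, add_zero]

lemma p'_iso : ⟪D.p' m, D.p' m⟫ = 0 := by
  rw [Dat.p', H3.hermForm_append, D.e'_iso, hzero_l D.hF, add_zero]

lemma p_p' : ⟪D.p m, D.p' m⟫ = 1 := by
  rw [Dat.p', Dat.p, H3.hermForm_append, D.pair, hzero_l D.hF, add_zero]

lemma p'_p : ⟪D.p' m, D.p m⟫ = 1 := by rw [← hswap D.hF, p_p', one_pow]

lemma p_ne : D.p m ≠ 0 := fun h => one_ne_zero (α := F) (by rw [← D.p_p' (m := m), h, hzero_l D.hF])

lemma li : LinearIndependent F ![D.e, D.e'] := by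
  refine LinearIndependent.pair_iff.mpr fun a b h => ?_
  have h1 := congrArg (fun x => Cfsg.hermForm 2 F q x D.e') h
  have h2 := congrArg (fun x => Cfsg.hermForm 2 F q x D.e) h
  simp only [hadd_l D.hF, hsmul_l D.hF, hzero_l D.hF, D.pair, D.pair', D.e_iso, D.e'_iso, mul_one,
    mul_zero, add_zero, zero_add] at h1 h2
  exact ⟨h1, h2⟩

end Dat

/-- Embedding of the orthogonal of the first plane. -/
def up : (Fin m → F) →ₗ[F] (Fin (2 + m) → F) where
  toFun w := Fin.append 0 w
  map_add' a b := funext (Fin.addCases (by simp) (by simp))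
  map_smul' c a := funext (Fin.addCases (by simp) (by simp))

/-- Projection on the orthogonal of the first plane. -/
def down : (Fin (2 + m) → F) →ₗ[F] (Fin m → F) := LinearMap.funLeft F F (Fin.natAdd 2)

lemma up_def (w : Fin m → F) : up w = (Fin.append 0 w : Fin (2 + m) → F) := rfl

@[simp] lemma down_up (w : Fin m → F) : down (up w) = w := by funext i; simp [down, up]

lemma up_injective : Function.Injective (up : (Fin m → F) → (Fin (2 + m) → F)) :=
  fun a b h => by rw [← down_up a, ← down_up b, h]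

namespace Dat

@[simp] lemma down_p : down (D.p m) = 0 := by funext i; simp [down, Dat.p]

@[simp] lemma down_p' : down (D.p' m) = 0 := by funext i; simp [down, Dat.p']

@[simp] lemma p_up (w : Fin m → F) : ⟪D.p m, up w⟫ = 0 := by
  rw [Dat.p, up_def, H3.hermForm_append, hzero_r D.hF, hzero_l D.hF, add_zero]

@[simp] lemma p'_up (w : Fin m → F) : ⟪D.p' m, up w⟫ = 0 := by
  rw [Dat.p', up_def, H3.hermForm_append, hzero_r D.hF, hzero_l D.hF, add_zero]

@[simp] lemma up_p (w : Fin m → F) : ⟪up w, D.p m⟫ = 0 := hswap_zero D.hF (D.p_up w)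

@[simp] lemma up_p' (w : Fin m → F) : ⟪up w, D.p' m⟫ = 0 := hswap_zero D.hF (D.p'_up w)

include D in
lemma form_up (v w : Fin m → F) : ⟪up v, up w⟫ = ⟪v, w⟫ := by
  rw [up_def, up_def, H3.hermForm_append, hzero_l D.hF, zero_add]

lemma decomp (u : Fin (2 + m) → F) :
    u = ⟪u, D.p' m⟫ • D.p m + ⟪u, D.p m⟫ • D.p' m + up (down u) := by
  obtain ⟨x, w, rfl⟩ : ∃ (x : Fin 2 → F) (w : Fin m → F), u = Fin.append x w :=
    ⟨_, _, (Fin.append_castAdd_natAdd (f := u)).symm⟩
  have hd : down (Fin.append x w : Fin (2 + m) → F) = w := by funext i; simp [down]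
  have hx : x = Cfsg.hermForm 2 F q x D.e' • D.e + Cfsg.hermForm 2 F q x D.e • D.e' := by
    have hsp := D.li.span_eq_top_of_card_eq_finrank (by simp)
    have hx : x ∈ Submodule.span F (Set.range ![D.e, D.e']) := hsp ▸ Submodule.mem_top
    rw [Matrix.range_cons_cons_empty, Submodule.mem_span_pair] at hx
    obtain ⟨a, b, rfl⟩ := hx
    simp [hadd_l D.hF, hsmul_l D.hF, D.pair, D.pair', D.e_iso, D.e'_iso]
  rw [hd, Dat.p', Dat.p, H3.hermForm_append, H3.hermForm_append, hzero_r D.hF, add_zero, add_zero]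
  conv_lhs => rw [hx]
  exact funext (Fin.addCases (fun i => by simp [up_def]) fun i => by simp [up_def])

end Dat

/-- `SU m` on the orthogonal of the first plane. -/
noncomputable def incl : Cfsg.SU m F q →* Cfsg.SU (2 + m) F q :=
  (H3.suEquivKer (2 + m) F q).symm.toMonoidHom.comp
    (((H3.guBlock 2 m).comp
      ((MonoidHom.inr (Cfsg.GU 2 F q) (Cfsg.GU m F q)).comp (H3.suToGU m F q))).codRestrict
      (H3.guDet (2 + m) F q).ker fun g => MonoidHom.mem_ker.mpr (Units.ext (by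
        show ((H3.glBlock 2 m (1, (H3.suToGU m F q g).1) : GL (Fin (2 + m)) F) :
          Matrix (Fin (2 + m)) (Fin (2 + m)) F).det = 1
        rw [H3.det_glBlock]
        simpa using g.1.2)))

omit [Fintype F] in
lemma act_incl (g : Cfsg.SU m F q) (x : Fin 2 → F) (w : Fin m → F) :
    act (incl g) (Fin.append x w) = Fin.append x (act g w) := by
  show ((H3.guBlock 2 m (1, H3.suToGU m F q g)).1 : Matrix (Fin (2 + m)) (Fin (2 + m)) F) *ᵥ _ = _
  rw [H3.guBlock_mulVec]
  simp

omit [Fintype F] in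
lemma act_incl_up (g : Cfsg.SU m F q) (w : Fin m → F) : act (incl g) (up w) = up (act g w) :=
  act_incl g 0 w

@[simp] lemma act_incl_p (g : Cfsg.SU m F q) : act (incl g) (D.p m) = D.p m := by
  rw [Dat.p, act_incl, act_zero]

@[simp] lemma act_incl_p' (g : Cfsg.SU m F q) : act (incl g) (D.p' m) = D.p' m := by
  rw [Dat.p', act_incl, act_zero]

/-- Diagonal elements of the Levi subgroup. -/
theorem exists_lev (c : F) (hc : c ≠ 0) (d : Fin m → F) (hd : ∀ i, d i ^ (q + 1) = 1)
    (hdet : c * (∏ i, d i) = c ^ q) :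
    ∃ g : Cfsg.SU (2 + m) F q, act g (D.p m) = c • D.p m ∧ act g (D.p' m) = (c ^ q)⁻¹ • D.p' m ∧
      ∀ w, act g (up w) = up (fun i => d i * w i) := by
  have hcq : c ^ q ≠ 0 := pow_ne_zero _ hc
  obtain ⟨a, ha⟩ := H3.exists_GU_witt D.hF ![D.e, D.e'] ![c • D.e, (c ^ q)⁻¹ • D.e'] D.li
    (by
      have := D.li.units_smul ![Units.mk0 c hc, Units.mk0 _ (inv_ne_zero hcq)]
      convert this using 1
      funext i; fin_cases i <;> rfl)
    (by
      intro i j
      fin_cases i <;> fin_cases j <;>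
        simp [hsmul_l D.hF, hsmul_r D.hF, D.pair, D.pair', D.e_iso, D.e'_iso, qq D.hF, inv_pow, hc,
          hcq])
  have hdeta : (a.1 : Matrix (Fin 2) (Fin 2) F).det = c * (c ^ q)⁻¹ := by
    set P : Matrix (Fin 2) (Fin 2) F := Matrix.of fun i j => ![D.e, D.e'] j i with hP
    have hPu : IsUnit P := Matrix.linearIndependent_cols_iff_isUnit.mp (show LinearIndependent F P.col
      from by
        have e : P.col = ![D.e, D.e'] := by funext j i; simp [hP]
        rw [e]; exact D.li)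
    have hP0 : P.det ≠ 0 := (Matrix.isUnit_iff_isUnit_det P |>.mp hPu).ne_zero
    have e : (a.1 : Matrix (Fin 2) (Fin 2) F) * P = P * Matrix.diagonal ![c, (c ^ q)⁻¹] := by
      ext i j
      have h1 : ∀ j, ((a.1 : Matrix (Fin 2) (Fin 2) F) * P) i j =
          ((a.1 : Matrix (Fin 2) (Fin 2) F) *ᵥ ![D.e, D.e'] j) i := fun j => by
        simp [Matrix.mul_apply, Matrix.mulVec, dotProduct, hP]
      rw [h1, ha j, Matrix.mul_diagonal]
      fin_cases j <;> simp [hP, mul_comm]
    have h := congrArg Matrix.det e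
    rw [Matrix.det_mul, Matrix.det_mul, Matrix.det_diagonal, mul_comm P.det] at h
    simpa using mul_right_cancel₀ hP0 h
  set g := H3.guBlock 2 m (a, H3.guDiag d hd) with hg
  have hk : g ∈ (H3.guDet (2 + m) F q).ker := MonoidHom.mem_ker.mpr (Units.ext (by
    show ((H3.glBlock 2 m (a.1, (H3.guDiag d hd).1) : GL (Fin (2 + m)) F) :
      Matrix (Fin (2 + m)) (Fin (2 + m)) F).det = 1
    rw [H3.det_glBlock, hdeta, show ((H3.guDiag d hd).1 : Matrix (Fin m) (Fin m) F).det = ∏ i, d i by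
      simp [H3.guDiag]]
    field_simp
    linear_combination hdet))
  have hact : ∀ x w, act ((H3.suEquivKer (2 + m) F q).symm ⟨g, hk⟩) (Fin.append x w) =
      Fin.append ((a.1 : Matrix (Fin 2) (Fin 2) F) *ᵥ x) (fun i => d i * w i) := fun x w => by
    show (g.1 : Matrix (Fin (2 + m)) (Fin (2 + m)) F) *ᵥ _ = _
    rw [hg, H3.guBlock_mulVec]
    congr 1
    funext i
    simp [H3.guDiag, Matrix.mulVec_diagonal]
  refine ⟨(H3.suEquivKer (2 + m) F q).symm ⟨g, hk⟩, ?_, ?_, fun w => ?_⟩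
  · rw [Dat.p, hact, show (a.1 : Matrix (Fin 2) (Fin 2) F) *ᵥ D.e = c • D.e from ha 0]
    exact funext (Fin.addCases (by simp) (by simp))
  · rw [Dat.p', hact, show (a.1 : Matrix (Fin 2) (Fin 2) F) *ᵥ D.e' = (c ^ q)⁻¹ • D.e' from ha 1]
    exact funext (Fin.addCases (by simp) (by simp))
  · rw [up_def, hact, Matrix.mulVec_zero, up_def]

/-- The Levi subgroup: the stabiliser of both points. -/
def Lev (D : Dat F q) (m : ℕ) : Subgroup (Cfsg.SU (2 + m) F q) where
  carrier := {g | (∃ c : F, c ≠ 0 ∧ act g (D.p m) = c • D.p m) ∧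
    ∃ c : F, c ≠ 0 ∧ act g (D.p' m) = c • D.p' m}
  one_mem' := ⟨⟨1, one_ne_zero, by rw [act_one, one_smul]⟩, ⟨1, one_ne_zero, by rw [act_one, one_smul]⟩⟩
  mul_mem' := by
    rintro g h ⟨⟨a, ha0, ha⟩, ⟨a', ha0', ha'⟩⟩ ⟨⟨b, hb0, hb⟩, ⟨b', hb0', hb'⟩⟩
    exact ⟨⟨b * a, mul_ne_zero hb0 ha0, by rw [act_mul, hb, act_smul, ha, smul_smul]⟩,
      ⟨b' * a', mul_ne_zero hb0' ha0', by rw [act_mul, hb', act_smul, ha', smul_smul]⟩⟩
  inv_mem' := by
    rintro g ⟨⟨a, ha0, ha⟩, ⟨a', ha0', ha'⟩⟩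
    refine ⟨⟨a⁻¹, inv_ne_zero ha0, ?_⟩, ⟨a'⁻¹, inv_ne_zero ha0', ?_⟩⟩
    · apply act_injective g
      rw [act_act_inv, act_smul, ha, smul_smul, inv_mul_cancel₀ ha0, one_smul]
    · apply act_injective g
      rw [act_act_inv, act_smul, ha', smul_smul, inv_mul_cancel₀ ha0', one_smul]

variable {D}

/-- The scalar by which a Levi element moves `p`. -/
def cc (g : Lev D m) : F := Cfsg.hermForm (2 + m) F q (act g.1 (D.p m)) (D.p' m)

lemma act_p (g : Lev D m) : act g.1 (D.p m) = cc g • D.p m := by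
  obtain ⟨⟨c, -, hc⟩, -⟩ := g.2
  rw [cc, hc, hsmul_l D.hF, D.p_p', mul_one]

lemma cc_ne (g : Lev D m) : cc g ≠ 0 := fun h => act_ne_zero g.1 D.p_ne (by rw [act_p, h, zero_smul])

lemma cc_one : cc (1 : Lev D m) = 1 := by
  rw [cc, OneMemClass.coe_one, act_one, D.p_p']

lemma cc_mul (g h : Lev D m) : cc (g * h) = cc g * cc h := by
  rw [cc, Subgroup.coe_mul, act_mul, act_p, act_smul, act_p, smul_smul, hsmul_l D.hF, D.p_p',
    mul_one, mul_comm]

lemma act_up (g : Lev D m) (w : Fin m → F) : act g.1 (up w) = up (down (act g.1 (up w))) := by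
  obtain ⟨-, c', hc', hp'⟩ := g.2
  have h1 : ⟪act g.1 (up w), D.p m⟫ = 0 := by
    have e := form_act g.1 (up w) (D.p m)
    rw [D.up_p, act_p, hsmul_r D.hF] at e
    exact (mul_eq_zero.mp e).resolve_left (pow_ne_zero _ (cc_ne g))
  have h2 : ⟪act g.1 (up w), D.p' m⟫ = 0 := by
    have e := form_act g.1 (up w) (D.p' m)
    rw [D.up_p', hp', hsmul_r D.hF] at e
    exact (mul_eq_zero.mp e).resolve_left (pow_ne_zero _ hc')
  conv_lhs => rw [D.decomp (act g.1 (up w)), h1, h2, zero_smul, zero_smul, zero_add, zero_add]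

/-- The Levi subgroup acting on the orthogonal of the plane, as on the radical. -/
instance levAction : DistribMulAction (Lev D m) (Fin m → F) where
  smul g w := cc g ^ q • down (act g.1 (up w))
  one_smul w := by
    show cc (1 : Lev D m) ^ q • down (act (1 : Lev D m).1 (up w)) = w
    rw [cc_one, one_pow, one_smul, OneMemClass.coe_one, act_one, down_up]
  mul_smul g h w := by
    show cc (g * h) ^ q • down (act (g * h).1 (up w)) =
      cc g ^ q • down (act g.1 (up (cc h ^ q • down (act h.1 (up w)))))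
    rw [cc_mul, mul_pow, Subgroup.coe_mul, act_mul, map_smul, act_smul, map_smul, ← act_up h w,
      smul_smul]
  smul_zero g := by
    show cc g ^ q • down (act g.1 (up 0)) = 0
    rw [map_zero, act_zero, map_zero, smul_zero]
  smul_add g x y := by
    show cc g ^ q • down (act g.1 (up (x + y))) =
      cc g ^ q • down (act g.1 (up x)) + cc g ^ q • down (act g.1 (up y))
    rw [map_add, act_add, map_add, smul_add]

lemma lev_smul_def (g : Lev D m) (w : Fin m → F) : g • w = cc g ^ q • down (act g.1 (up w)) := rfl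

lemma act_up_smul (g : Lev D m) (w : Fin m → F) : up (g • w) = cc g ^ q • act g.1 (up w) := by
  rw [lev_smul_def, map_smul, ← act_up]

variable (D) in
/-- `SU m` as part of the Levi subgroup. -/
noncomputable def inclL : Cfsg.SU m F q →* Lev D m :=
  (incl (F := F) (q := q) (m := m)).codRestrict (Lev D m) fun g =>
    ⟨⟨1, one_ne_zero, by rw [act_incl_p, one_smul]⟩, ⟨1, one_ne_zero, by rw [act_incl_p', one_smul]⟩⟩

@[simp] lemma cc_inclL (g : Cfsg.SU m F q) : cc (inclL D g) = 1 := by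
  show ⟪act (incl g) (D.p m), D.p' m⟫ = 1
  rw [act_incl_p, D.p_p']

lemma inclL_smul (g : Cfsg.SU m F q) (w : Fin m → F) : inclL D g • w = g • w := by
  rw [lev_smul_def, cc_inclL, one_pow, one_smul]
  show down (act (incl g) (up w)) = _
  rw [act_incl_up, down_up]
  rfl

variable (D) in
/-- The diagonal Levi element with given data. -/
theorem exists_levL (c : F) (hc : c ≠ 0) (d : Fin m → F) (hd : ∀ i, d i ^ (q + 1) = 1)
    (hdet : c * (∏ i, d i) = c ^ q) :
    ∃ g : Lev D m, cc g = c ∧ ∀ w, g • w = fun i => c ^ q * (d i * w i) := by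
  obtain ⟨g, h1, h2, h3⟩ := exists_lev D c hc d hd hdet
  let gL : Lev D m := ⟨g, ⟨c, hc, h1⟩, ⟨_, inv_ne_zero (pow_ne_zero _ hc), h2⟩⟩
  have hcg : cc gL = c := by
    show ⟪act g (D.p m), D.p' m⟫ = c
    rw [h1, hsmul_l D.hF, D.p_p', mul_one]
  refine ⟨gL, hcg, fun w => ?_⟩
  rw [lev_smul_def, hcg, show act gL.1 (up w) = up (fun i => d i * w i) from h3 w, down_up]
  rfl

variable (D) in
/-- A Levi element with any prescribed scalar. -/
theorem exists_levL_scalar (hm : 1 ≤ m) {c : F} (hc : c ≠ 0) : ∃ g : Lev D m, cc g = c := by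
  have hcq : c ^ q ≠ 0 := pow_ne_zero _ hc
  obtain ⟨g, hg, -⟩ := exists_levL D c hc (Pi.mulSingle (⟨0, hm⟩ : Fin m) (c ^ q / c))
    (fun i => by
      by_cases hi : i = ⟨0, hm⟩
      · subst hi
        rw [Pi.mulSingle_eq_same, pow_succ, div_pow, qq D.hF]
        field_simp
      · rw [Pi.mulSingle_eq_of_ne hi, one_pow])
    (by rw [Finset.prod_eq_single (⟨0, hm⟩ : Fin m) (fun i _ hi => Pi.mulSingle_eq_of_ne hi _) (by simp),
      Pi.mulSingle_eq_same]; field_simp)
  exact ⟨g, hg⟩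

end Cfsg.Agent.H2.MinU
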