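import Cfsg.Agent.H2.MinU.Regular

/-!
The induction step for the minimal index of `SU n`.
-/

set_option autoImplicit false

namespace Cfsg.Agent.H2.MinU

open Matrix MulAction
open scoped Pointwise

variable {F : Type*} [Field F] [Fintype F] {q : ℕ}

/-- A smaller degree forces the degree of the action on points, given the facts one dimension down. -/
theorem high_step (hF : Fintype.card F = q ^ 2) {m M : ℕ} (hm : 4 ≤ m) (hqm : q = 2 → 5 ≤ m)
    (hM : ∀ H : Subgroup (Cfsg.SU m F q), H ≠ ⊤ → M ≤ H.index)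
    (hMR : pts q (2 + m) ≤ M * q ^ (m + 1))
    (hMG : q ^ (2 + m) ≤ (q ^ 2 - 1) * M + 1)
    (hBig : ∀ C : AddSubgroup (Fin m → F), C ≠ ⊥ → C ≠ ⊤ → q ^ 2 ≤ Nat.card C →
      q ^ 2 * pts q m ≤ Nat.card (orbit (Cfsg.SU m F q) C) * Nat.card C)
    (H : Subgroup (Cfsg.SU (2 + m) F q)) (hH : H ≠ ⊤) : pts q (2 + m) ≤ H.index := by
  classical
  obtain ⟨D⟩ := exists_dat hF
  have hq := H3.two_le_q hF
  have hN2 : 2 ≤ H.index := Subgroup.one_lt_index_of_ne_top hH
  by_contra hlt
  push Not at hlt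
  set Ω := Cfsg.SU (2 + m) F q ⧸ H
  have hN : Nat.card Ω < pts q (2 + m) := hlt
  have hN2' : 2 ≤ Nat.card Ω := hN2
  -- no radical fixes a point
  have hgeom : ∀ (p : Fin (2 + m) → F) (ω : Ω), ¬ AllFix D.hF p ω := fun p ω hp => by
    have := geom_bound (D := D) (m := m) (by omega) (M := M) (R := pts q (2 + m)) (fun A h0 hiso _ => by
        refine le_card_orbit hF (by omega) hM h0 fun h1 => ?_
        obtain ⟨v, j, -, hv, -⟩ := exists_base (m := m) hF (by omega) (one_pow q) (Or.inr (by omega))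
        exact one_ne_zero (α := F) (hv.symm.trans (hiso v (h1 ▸ AddSubgroup.mem_top v))))
      le_rfl (by
        rw [mul_comm ((q ^ 2 - 1)), mul_assoc]
        exact Nat.mul_le_mul_left _ (by omega)) hN2' hp
    omega
  have hstr := structure_fix (D := D) (Ω := Ω) (m := m) (by omega) hM hMR hN hN2'
  rcases Nat.eq_zero_or_pos (fixT D m Ω).ncard with hx | hx
  · -- the radical is regular
    rw [hx, zero_add] at hstr
    have hfix : fixT D m Ω = ∅ := (Set.ncard_eq_zero (Set.toFinite _)).mp hx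
    have horb : ∀ w : Ω, Nat.card (orbit (Qg D m) w) = q ^ (2 * m + 1) ∧ aS m D w = ⊥ ∧ zS m D w = ⊥ := by
      intro w
      obtain ⟨h1, h2, h3⟩ := regular_of_moved (D := D) (m := m) (by omega) hM hMR hN (ω := w)
        (fun h => by
          have : w ∈ fixT D m Ω := h
          rw [hfix] at this; exact this)
      exact ⟨h3, h2, h1⟩
    have hfree : ∀ (w : Ω), ∀ g ∈ Qg D m, g • w = w → g = 1 := by
      rintro w _ ⟨x, t, hok, rfl⟩ hfixw
      have hx0 : x ∈ aS m D w := ⟨t, hok, hfixw⟩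
      rw [(horb w).2.1, AddSubgroup.mem_bot] at hx0
      subst hx0
      have ht : t + t ^ q = 0 := by simpa [OkW, hzero_l hF] using hok
      have ht0 : t ∈ zS m D w := ⟨ht, hfixw⟩
      rw [(horb w).2.2, AddSubgroup.mem_bot] at ht0
      rw [ht0, El_zero]
    have htr : ∀ w w' : Ω, ∃ g ∈ Qg D m, g • w = w' := by
      intro w w'
      have : orbit (Qg D m) w = Set.univ := Set.eq_of_subset_of_ncard_le (Set.subset_univ _) (by
        rw [Set.ncard_univ, ← Nat.card_coe_set_eq, (horb w).1, hstr])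
      obtain ⟨g, hg⟩ : w' ∈ orbit (Qg D m) w := this ▸ Set.mem_univ w'
      exact ⟨g.1, g.2, hg⟩
    obtain ⟨ω₀⟩ : Nonempty Ω := (Nat.card_pos_iff.mp (by omega)).1
    rcases Nat.lt_or_ge q 3 with hq3 | hq3
    · obtain rfl : q = 2 := by omega
      obtain ⟨b, rfl⟩ : ∃ b, m = 5 + b := ⟨m - 5, by have := hqm rfl; omega⟩
      obtain ⟨c, δ, h1, h2, h3, h4⟩ := exists_scalars_two (F := F) hF
      exact false_of_regular_scalars (D := D) (by omega) (by omega) c δ h1 h2 h3 h4 hfree htr hfix ω₀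
    · obtain ⟨b, rfl⟩ : ∃ b, m = 3 + b := ⟨m - 3, by omega⟩
      obtain ⟨c, δ, h1, h2, h3, h4⟩ := exists_scalars (F := F) hF hq3
      exact false_of_regular_scalars (D := D) (by omega) (by omega) c δ h1 h2 h3 h4 hfree htr hfix ω₀
  · -- the fixed points are as in the action on points
    obtain ⟨ω, hω⟩ := (Set.ncard_pos (Set.toFinite _)).mp hx
    have hlow := fix_lower (D := D) (m := m) hm hBig hω fun h => hgeom _ _ (allFix_of_aS_top hω h)
    have hP : pts q (2 + m) = 1 + q ^ 2 * pts q m + q ^ (2 * m + 1) := by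
      rw [add_comm 2 m]; exact pts_succ_succ q m
    have hpos : 0 < q ^ (2 * m + 1) := Nat.pow_pos (by omega)
    exact false_of_fix_count D (by omega) (fixT D m Ω) (fun w => mem_fixT) (by omega) hx (by omega)

end Cfsg.Agent.H2.MinU
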