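import Cfsg.Agent.H2.MinU.Geom

/-!
The radical cannot act regularly while no transvection fixes a point.
-/

set_option autoImplicit false

namespace Cfsg.Agent.H2.MinU

open Matrix MulAction
open scoped Pointwise

variable {F : Type*} [Field F] [Fintype F] {q : ℕ}

local notation "⟪" u ", " v "⟫" => Cfsg.hermForm _ F q u v

/-- `SU a` on the first coordinates. -/
noncomputable def inclFirst {a b : ℕ} : Cfsg.SU a F q →* Cfsg.SU (a + b) F q :=
  (H3.suEquivKer (a + b) F q).symm.toMonoidHom.comp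
    (((H3.guBlock a b).comp
      ((MonoidHom.inl (Cfsg.GU a F q) (Cfsg.GU b F q)).comp (H3.suToGU a F q))).codRestrict
      (H3.guDet (a + b) F q).ker fun g => MonoidHom.mem_ker.mpr (Units.ext (by
        show ((H3.glBlock a b ((H3.suToGU a F q g).1, 1) : GL (Fin (a + b)) F) :
          Matrix (Fin (a + b)) (Fin (a + b)) F).det = 1
        rw [H3.det_glBlock]
        simpa using g.1.2)))

omit [Fintype F] in
lemma act_inclFirst {a b : ℕ} (g : Cfsg.SU a F q) (x : Fin a → F) (w : Fin b → F) :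
    act (inclFirst g) (Fin.append x w) = Fin.append (act g x) w := by
  show ((H3.guBlock a b (H3.suToGU a F q g, 1)).1 : Matrix (Fin (a + b)) (Fin (a + b)) F) *ᵥ _ = _
  rw [H3.guBlock_mulVec]
  simp

variable {D : Dat F q} {a b : ℕ} {Ω : Type*} [MulAction (Cfsg.SU (2 + (a + b)) F q) Ω]

/-- The regular action is impossible, given suitable scalars on a perfect block. -/
theorem false_of_regular_scalars (ha : 3 ≤ a) (haq : ¬(a = 3 ∧ q = 2)) (c δ : F) (hc : c ≠ 0)
    (hδ : δ ^ (q + 1) = 1) (hcδ : c * δ ^ a = c ^ q) (hμ : c ^ q * δ ≠ 1)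
    (hfree : ∀ (w : Ω), ∀ g ∈ Qg D (a + b), g • w = w → g = 1)
    (htrans : ∀ w w' : Ω, ∃ g ∈ Qg D (a + b), g • w = w')
    (hfix : fixT D (a + b) Ω = ∅) (ω₀ : Ω) : False := by
  classical
  -- the torus element
  let d : Fin (a + b) → F := Fin.append (fun _ => δ) fun _ => 1
  obtain ⟨s, hs1, hs2⟩ := exists_levL D c hc d
    (fun i => by induction i using Fin.addCases <;> simp [d, hδ])
    (by rw [Fin.prod_univ_add]; simpa [d] using hcδ)
  have hsact : ∀ (x : Fin a → F) (y : Fin b → F), s • (Fin.append x y : Fin (a + b) → F) =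
      Fin.append ((c ^ q * δ) • x) (c ^ q • y) := fun x y => by
    rw [hs2]
    funext i
    induction i using Fin.addCases with
    | left i => simp [d, mul_assoc]
    | right i => simp [d]
  let L : Cfsg.SU a F q →* Lev D (a + b) := (inclL D).comp inclFirst
  have hLact : ∀ (l : Cfsg.SU a F q) (x : Fin a → F) (y : Fin b → F),
      L l • (Fin.append x y : Fin (a + b) → F) = Fin.append (act l x) y := fun l x y => by
    show inclL D (inclFirst l) • (Fin.append x y : Fin (a + b) → F) = _
    rw [inclL_smul, smul_eq_act, act_inclFirst]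
  have hLcc : ∀ l, cc (L l) = 1 := fun l => cc_inclL _
  have hcomm : ∀ l, s.1 * (L l).1 = (L l).1 * s.1 := by
    intro l
    refine ext_act fun u => ?_
    have hp' : act s.1 (D.p' (a + b)) = (c ^ q)⁻¹ • D.p' (a + b) := by
      obtain ⟨-, c', hc', h⟩ := s.2
      have e := form_act s.1 (D.p (a + b)) (D.p' (a + b))
      rw [act_p, hs1, h, hsmul_l D.hF, hsmul_r D.hF, D.p_p', mul_one] at e
      rw [h]
      congr 1
      have e2 : c' * c ^ q = 1 := by
        have := congrArg (fun t => t ^ q) e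
        simp only [mul_pow, qq D.hF, one_pow] at this
        linear_combination this
      exact eq_inv_of_mul_eq_one_left e2
    have hsU : ∀ w, act s.1 (up w) = up (fun i => d i * w i) := fun w => by
      rw [act_up s w]
      congr 1
      have e := hs2 w
      rw [lev_smul_def, hs1] at e
      funext i
      exact mul_left_cancel₀ (pow_ne_zero q hc) (congrFun e i)
    have hLp : act (L l).1 (D.p (a + b)) = D.p (a + b) := act_incl_p D _
    have hLp' : act (L l).1 (D.p' (a + b)) = D.p' (a + b) := act_incl_p' D _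
    have hLU : ∀ w, act (L l).1 (up w) = up (L l • w) := fun w => by
      show act (incl (inclFirst l)) (up w) = up (inclL D (inclFirst l) • w)
      rw [act_incl_up, inclL_smul, smul_eq_act]
    obtain ⟨x, y, hxy⟩ : ∃ (x : Fin a → F) (y : Fin b → F), down u = Fin.append x y :=
      ⟨_, _, (Fin.append_castAdd_natAdd (f := down u)).symm⟩
    have hd : ∀ (x : Fin a → F) (y : Fin b → F),
        (fun i => d i * (Fin.append x y : Fin (a + b) → F) i) = Fin.append (δ • x) y := fun x y => by
      funext i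
      induction i using Fin.addCases <;> simp [d]
    rw [D.decomp u, hxy]
    simp only [act_mul, act_add, act_smul, hLp, hLp', act_p, hs1, hp', hsU, hLU, hLact, hd]
  -- adjust the point
  obtain ⟨u₀, ⟨w₀, a₀, hok₀, rfl⟩, hu₀⟩ := htrans (s.1 • ω₀) ω₀
  obtain ⟨x₀, y₀, hw₀⟩ : ∃ (x : Fin a → F) (y : Fin b → F), w₀ = Fin.append x y :=
    ⟨_, _, (Fin.append_castAdd_natAdd (f := w₀)).symm⟩
  subst hw₀
  set μ := c ^ q * δ with hμd
  have hμ1 : μ - 1 ≠ 0 := sub_ne_zero.mpr hμ
  set v : Fin (a + b) → F := Fin.append ((μ - 1)⁻¹ • x₀) 0 with hv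
  obtain ⟨av, hav⟩ := okW_exists D.hF v
  set ω := El D v av • ω₀ with hω
  have hg : El D v av * El D (Fin.append x₀ y₀) a₀ * (s.1 * (El D v av)⁻¹ * s.1⁻¹) ∈ Qg D (a + b) :=
    (Qg D _).mul_mem ((Qg D _).mul_mem (El_mem hav) (El_mem hok₀))
      (lev_normalises s ((Qg D _).inv_mem (El_mem hav)))
  obtain ⟨w', a', hok', hu'⟩ := hg
  have hu'fix : El D w' a' • s.1 • ω = ω := by
    rw [← hu', hω, smul_smul, smul_smul]
    rw [show El D v av * El D (Fin.append x₀ y₀) a₀ * (s.1 * (El D v av)⁻¹ * s.1⁻¹) * s.1 * El D v av =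
      El D v av * (El D (Fin.append x₀ y₀) a₀ * s.1) by group]
    rw [mul_smul, mul_smul, hu₀]
  have hw' : ∃ y, w' = Fin.append (0 : Fin a → F) y := by
    have h1 := okW_add D.hF hav hok₀
    have h2 := okW_smul s (okW_neg D.hF hav)
    rw [El_mul hav hok₀, El_inv hav, El_conj s (okW_neg D.hF hav), El_mul h1 h2] at hu'
    obtain ⟨rfl, -⟩ := El_inj (okW_add D.hF h1 h2) hok' hu'
    refine ⟨y₀, ?_⟩
    have : -v = Fin.append (-((μ - 1)⁻¹ • x₀)) (0 : Fin b → F) := by
      funext i; induction i using Fin.addCases <;> simp [hv]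
    rw [this, hsact, hv]
    funext i
    induction i using Fin.addCases with
    | left i =>
      simp only [Pi.add_apply, Fin.append_left, Pi.smul_apply, Pi.neg_apply, smul_eq_mul,
        Pi.zero_apply]
      field_simp
      ring
    | right i => simp
  obtain ⟨y', rfl⟩ := hw'
  have huniq : ∀ g h : Cfsg.SU (2 + (a + b)) F q, g ∈ Qg D (a + b) → h ∈ Qg D (a + b) →
      ∀ x : Ω, g • x = h • x → g = h := fun g h hg hh x e => by
    have := hfree x (h⁻¹ * g) ((Qg D _).mul_mem ((Qg D _).inv_mem hh) hg)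
      (by rw [mul_smul, e, inv_smul_smul])
    exact (inv_mul_eq_one.mp this).symm
  -- the lifts
  have hlift : ∀ l : Cfsg.SU a F q, ∃ (y : Fin b → F) (t : F),
      OkW q (Fin.append (0 : Fin a → F) y) t ∧ El D (Fin.append (0 : Fin a → F) y) t • (L l).1 • ω = ω := by
    intro l
    obtain ⟨g, ⟨w, t, hok, rfl⟩, hgω⟩ := htrans ((L l).1 • ω) ω
    obtain ⟨x, y, rfl⟩ : ∃ (x : Fin a → F) (y : Fin b → F), w = Fin.append x y :=
      ⟨_, _, (Fin.append_castAdd_natAdd (f := w)).symm⟩
    suffices hx : x = 0 by subst hx; exact ⟨y, t, hok, hgω⟩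
    have e1 : (El D (Fin.append 0 y') a' * (s.1 * El D (Fin.append x y) t * s.1⁻¹)) •
        (s.1 * (L l).1) • ω = ω := by
      rw [smul_smul, show El D (Fin.append 0 y') a' * (s.1 * El D (Fin.append x y) t * s.1⁻¹) *
        (s.1 * (L l).1) = El D (Fin.append 0 y') a' * (s.1 * (El D (Fin.append x y) t * (L l).1)) by group]
      rw [mul_smul, mul_smul, mul_smul, hgω, hu'fix]
    have e2 : (El D (Fin.append x y) t * ((L l).1 * El D (Fin.append 0 y') a' * (L l).1⁻¹)) •
        (s.1 * (L l).1) • ω = ω := by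
      rw [hcomm l, smul_smul, show El D (Fin.append x y) t * ((L l).1 * El D (Fin.append 0 y') a' *
        (L l).1⁻¹) * ((L l).1 * s.1) = El D (Fin.append x y) t * ((L l).1 *
        (El D (Fin.append 0 y') a' * s.1)) by group]
      rw [mul_smul, mul_smul, mul_smul, hu'fix, hgω]
    have e := huniq _ _ ((Qg D _).mul_mem (El_mem hok') (lev_normalises s (El_mem hok)))
      ((Qg D _).mul_mem (El_mem hok) (lev_normalises (L l) (El_mem hok'))) _ (e1.trans e2.symm)
    rw [El_conj s hok, El_conj (L l) hok', El_mul hok' (okW_smul s hok),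
      El_mul hok (okW_smul (L l) hok')] at e
    obtain ⟨e', -⟩ := El_inj (okW_add D.hF hok' (okW_smul s hok))
      (okW_add D.hF hok (okW_smul (L l) hok')) e
    rw [hsact, hLact, act_zero] at e'
    funext i
    have e3 := congrFun e' (Fin.castAdd b i)
    simp only [Pi.add_apply, Fin.append_left, Pi.zero_apply, Pi.smul_apply, smul_eq_mul, zero_add,
      add_zero, ← hμd] at e3
    refine (mul_eq_zero.mp (?_ : (μ - 1) * x i = 0)).resolve_left hμ1
    linear_combination e3
  choose Y T hokYT hYT using hlift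
  have hmul : ∀ l l', El D (Fin.append (0 : Fin a → F) (Y (l * l'))) (T (l * l')) =
      El D (Fin.append (0 : Fin a → F) (Y l + Y l')) (T l + T l' - Cfsg.hermForm b F q (Y l') (Y l)) ∧
      Y (l * l') = Y l + Y l' ∧ T (l * l') = T l + T l' - Cfsg.hermForm b F q (Y l') (Y l) := by
    intro l l'
    have hc1 : (L l).1 * El D (Fin.append (0 : Fin a → F) (Y l')) (T l') * (L l).1⁻¹ =
        El D (Fin.append (0 : Fin a → F) (Y l')) (T l') := by
      rw [El_conj (L l) (hokYT l'), hLact, act_zero, hLcc, one_pow, one_mul, one_mul]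
    have e1 : (El D (Fin.append (0 : Fin a → F) (Y l)) (T l) * El D (Fin.append (0 : Fin a → F) (Y l')) (T l')) •
        (L (l * l')).1 • ω = ω := by
      rw [smul_smul, map_mul, Subgroup.coe_mul]
      conv_lhs => rw [← hc1]
      rw [show El D (Fin.append (0 : Fin a → F) (Y l)) (T l) * ((L l).1 * El D (Fin.append (0 : Fin a → F) (Y l')) (T l') *
        (L l).1⁻¹) * ((L l).1 * (L l').1) = El D (Fin.append (0 : Fin a → F) (Y l)) (T l) * ((L l).1 *
        (El D (Fin.append (0 : Fin a → F) (Y l')) (T l') * (L l').1)) by group]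
      rw [mul_smul, mul_smul, mul_smul, hYT l', hYT l]
    have e := huniq _ _ (El_mem (hokYT (l * l'))) ((Qg D _).mul_mem (El_mem (hokYT l)) (El_mem (hokYT l')))
      _ ((hYT (l * l')).trans e1.symm)
    have hsum : (Fin.append (0 : Fin a → F) (Y l) + Fin.append 0 (Y l') : Fin (a + b) → F) =
        Fin.append 0 (Y l + Y l') := by
      funext i; induction i using Fin.addCases <;> simp
    have hform : Cfsg.hermForm (a + b) F q (Fin.append (0 : Fin a → F) (Y l')) (Fin.append 0 (Y l)) =
        Cfsg.hermForm b F q (Y l') (Y l) := by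
      rw [H3.hermForm_append, hzero_l D.hF, zero_add]
    rw [El_mul (hokYT l) (hokYT l'), hsum, hform] at e
    have hok2 := okW_add D.hF (hokYT l) (hokYT l')
    rw [hsum, hform] at hok2
    obtain ⟨h1, h2⟩ := El_inj (hokYT (l * l')) hok2 e
    exact ⟨e, funext fun i => by simpa using congrFun h1 (Fin.natAdd a i), h2⟩
  have hperf : commutator (Cfsg.SU a F q) = ⊤ := H3.commutator_SU_eq_top D.hF ha haq
  let fY : Cfsg.SU a F q →* Multiplicative (Fin b → F) :=
    MonoidHom.mk' (fun l => Multiplicative.ofAdd (Y l)) fun l l' => by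
      rw [(hmul l l').2.1]; rfl
  have hY : ∀ l, Y l = 0 := fun l => by
    have : l ∈ fY.ker := Abelianization.commutator_subset_ker fY (hperf ▸ Subgroup.mem_top l)
    exact this
  let fT : Cfsg.SU a F q →* Multiplicative F :=
    MonoidHom.mk' (fun l => Multiplicative.ofAdd (T l)) fun l l' => by
      rw [(hmul l l').2.2, hY l, hzero_r D.hF, sub_zero]; rfl
  have hT : ∀ l, T l = 0 := fun l => by
    have : l ∈ fT.ker := Abelianization.commutator_subset_ker fT (hperf ▸ Subgroup.mem_top l)
    exact this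
  have hLfix : ∀ l, (L l).1 • ω = ω := fun l => by
    have h := hYT l
    have e : (Fin.append (0 : Fin a → F) (0 : Fin b → F) : Fin (a + b) → F) = 0 := by
      funext i; induction i using Fin.addCases <;> simp
    rwa [hY l, hT l, e, El_zero, one_smul] at h
  -- a transvection of the block fixes the point
  obtain ⟨v₁, hv₁0, hv₁⟩ := H3.exists_isotropic D.hF (n := a) (by omega)
  set v₂ : Fin (2 + (a + b)) → F := up (Fin.append v₁ 0) with hv₂
  have hv₂0 : v₂ ≠ 0 := fun e => hv₁0 (by
    have h := up_injective (e.trans (map_zero _).symm)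
    funext i
    simpa using congrFun h (Fin.castAdd b i))
  have hv₂iso : ⟪v₂, v₂⟫ = 0 := by
    rw [hv₂, D.form_up, H3.hermForm_append, hv₁, hzero_l D.hF, add_zero]
  have hTF : TF D.hF v₂ ω := by
    intro t ht
    set A := E D.hF v₁ 0 t with hA
    have : E D.hF v₂ 0 t = (L A).1 := by
      refine ext_act fun u => ?_
      show act (E D.hF v₂ 0 t) u = act (incl (inclFirst A)) u
      obtain ⟨x, y, hxy⟩ : ∃ (x : Fin a → F) (y : Fin b → F), down u = Fin.append x y :=
        ⟨_, _, (Fin.append_castAdd_natAdd (f := down u)).symm⟩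
      rw [act_trans D.hF hv₂iso ht]
      conv_rhs => rw [D.decomp u, hxy]
      have hfu : ⟪u, v₂⟫ = Cfsg.hermForm a F q x v₁ := by
        conv_lhs => rw [D.decomp u, hxy, hv₂]
        rw [hadd_l D.hF, hadd_l D.hF, hsmul_l D.hF, hsmul_l D.hF, D.p_up, D.p'_up, D.form_up,
          H3.hermForm_append, hzero_r D.hF]
        ring
      simp only [act_add, act_smul, act_incl_p, act_incl_p', act_incl_up, act_inclFirst]
      rw [hfu, hA, act_trans D.hF hv₁ ht]
      conv_lhs => rw [D.decomp u, hxy, hv₂]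
      have : (Fin.append (x + (t * Cfsg.hermForm a F q x v₁) • v₁) y : Fin (a + b) → F) =
          Fin.append x y + (t * Cfsg.hermForm a F q x v₁) • Fin.append v₁ 0 := by
        funext i; induction i using Fin.addCases <;> simp
      rw [this, map_add, map_smul]
      abel
    rw [this]; exact hLfix A
  obtain ⟨g, hg⟩ : D.p (a + b) ∈ orbit (Cfsg.SU (2 + (a + b)) F q) v₂ := by
    rw [orbit_eq_class D.hF (by omega) hv₂0 (Or.inr (by omega))]
    exact ⟨D.p_ne, D.p_iso.trans hv₂iso.symm⟩
  change act g v₂ = D.p (a + b) at hg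
  have h := TF.act D.hF hv₂iso hTF g
  rw [hg] at h
  have := mem_fixT.mpr h
  rw [hfix] at this
  exact this

/-- Suitable scalars exist for `q ≥ 3`. -/
theorem exists_scalars (hF : Fintype.card F = q ^ 2) (hq : 3 ≤ q) :
    ∃ c δ : F, c ≠ 0 ∧ δ ^ (q + 1) = 1 ∧ c * δ ^ 3 = c ^ q ∧ c ^ q * δ ≠ 1 := by
  obtain ⟨c, hc, hc0, hc1⟩ : ∃ c : F, c ^ q = c ∧ c ≠ 0 ∧ c ≠ 1 := by
    by_contra h
    push Not at h
    classical
    have hsub : {x : F | x ^ q = x} ⊆ ({0, 1} : Set F) := fun x hx => by
      by_cases h0 : x = 0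
      · exact Or.inl h0
      · exact Or.inr (h x hx h0)
    have := Set.ncard_le_ncard hsub (Set.toFinite _)
    rw [← Nat.card_coe_set_eq, Set.coe_setOf, H3.card_fixed hF] at this
    have h' : ({0, 1} : Set F).ncard ≤ 2 := by rw [Set.ncard_pair zero_ne_one]
    omega
  exact ⟨c, 1, hc0, one_pow _, by rw [one_pow, mul_one, hc], by rwa [mul_one, hc]⟩

/-- Suitable scalars exist over the field with four elements. -/
theorem exists_scalars_two (hF : Fintype.card F = 2 ^ 2) :
    ∃ c δ : F, c ≠ 0 ∧ δ ^ (2 + 1) = 1 ∧ c * δ ^ 5 = c ^ 2 ∧ c ^ 2 * δ ≠ 1 := by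
  obtain ⟨δ, hδ⟩ := H3.exists_conj_ne (q := 2) hF
  have h0 : δ ≠ 0 := by rintro rfl; simp at hδ
  have h1 : δ ≠ 1 := by rintro rfl; simp at hδ
  have h3 : δ ^ 3 = 1 := by
    have := FiniteField.pow_card_sub_one_eq_one δ h0
    rwa [hF] at this
  refine ⟨δ ^ 2, δ, pow_ne_zero _ h0, h3, ?_, ?_⟩
  · linear_combination (δ ^ 4) * h3
  · intro e
    refine h1 ?_
    linear_combination (δ ^ 3 + 1) * h3 - δ * e

end Cfsg.Agent.H2.MinU
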