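import Cfsg.Agent.H2.MinU.Radical
import Cfsg.Agent.H2.MinIdx.Scale

/-!
Additive pairings from a Hermitian form, and scalings of groups of trace-zero elements.
-/

set_option autoImplicit false

namespace Cfsg.Agent.H2.MinU

open Matrix MulAction
open scoped Pointwise

variable {F : Type*} [Field F] [Fintype F] {q m : ℕ}

local notation "⟪" u ", " v "⟫" => Cfsg.hermForm _ F q u v

variable (hF : Fintype.card F = q ^ 2) {p : ℕ}

/-- The vectors pairing trivially with an additive subgroup. -/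
def annih (hF : Fintype.card F = q ^ 2) (ψ : F →+ ZMod p) (A : AddSubgroup (Fin m → F)) :
    AddSubgroup (Fin m → F) where
  carrier := {c | ∀ a ∈ A, ψ (Cfsg.hermForm m F q a c) = 0}
  zero_mem' a _ := by rw [hzero_r hF, map_zero]
  add_mem' hb hc a ha := by rw [hadd_r hF, map_add, hb a ha, hc a ha, add_zero]
  neg_mem' hb a ha := by rw [hneg_r hF, map_neg, hb a ha, neg_zero]

lemma mem_annih {ψ : F →+ ZMod p} {A : AddSubgroup (Fin m → F)} {c : Fin m → F} :
    c ∈ annih hF ψ A ↔ ∀ a ∈ A, ψ ⟪a, c⟫ = 0 := Iff.rfl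

lemma annih_smul (ψ : F →+ ZMod p) (A : AddSubgroup (Fin m → F)) (g : Cfsg.SU m F q) :
    annih hF ψ (g • A) = g • annih hF ψ A := by
  ext c
  refine Iff.trans ?_ (AddSubgroup.mem_pointwise_smul_iff_inv_smul_mem (a := g)).symm
  rw [mem_annih, mem_annih]
  constructor
  · intro h a ha
    have h1 := h _ (AddSubgroup.smul_mem_pointwise_smul a g A ha)
    rw [show g • a = act g a from rfl, ← act_act_inv g c, form_act] at h1
    exact h1
  · intro h a ha
    have h1 := h _ (AddSubgroup.mem_pointwise_smul_iff_inv_smul_mem.mp ha)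
    rw [show g⁻¹ • a = act g⁻¹ a from rfl, show g⁻¹ • c = act g⁻¹ c from rfl, form_act] at h1
    exact h1

include hF in
/-- The order of the annihilator, for a functional compatible with conjugation. -/
theorem card_annih [Fact p.Prime] [CharP F p] (ψ : F →+ ZMod p) (hψ : ψ ≠ 0) (e : ZMod p)
    (hsym : ∀ t, ψ (t ^ q) = e * ψ t) (A : AddSubgroup (Fin m → F)) :
    Nat.card (annih hF ψ A) * Nat.card A = q ^ (2 * m) := by
  let _ : Algebra (ZMod p) F := ZMod.algebra F p
  let A' : Submodule (ZMod p) (Fin m → F) := AddSubgroup.toZModSubmodule p A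
  let b0 : (Fin m → F) →+ (Fin m → F) →+ ZMod p :=
    AddMonoidHom.mk' (fun x => AddMonoidHom.mk' (fun y => ψ (Cfsg.hermForm m F q x y))
      fun y z => by rw [hadd_r hF, map_add]) fun x y => AddMonoidHom.ext fun z => by
        show ψ (Cfsg.hermForm m F q (x + y) z) = ψ _ + ψ _
        rw [hadd_l hF, map_add]
  let b : LinearMap.BilinForm (ZMod p) (Fin m → F) :=
    (AddMonoidHom.mk' (fun x => (b0 x).toZModLinearMap p) fun x y => LinearMap.ext fun z => by
      show b0 (x + y) z = b0 x z + b0 y z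
      rw [map_add]; rfl).toZModLinearMap p
  have hb : ∀ x y, b x y = ψ ⟪x, y⟫ := fun x y => rfl
  obtain ⟨t, ht⟩ : ∃ t, ψ t ≠ 0 := by
    by_contra h; push Not at h; exact hψ (AddMonoidHom.ext h)
  have hrefl : b.IsRefl := fun x y h => by
    rw [hb] at h ⊢
    rw [← hswap hF x y, hsym, h, mul_zero]
  have hl : ∀ x, (∀ y, b x y = 0) → x = 0 := by
    intro x hx
    by_contra hx0
    obtain ⟨v, hv⟩ := H3.exists_hermForm_eq_one hF (q := q) hx0
    have h1 : ⟪x, (t ^ q) • v⟫ = t := by
      rw [hsmul_r hF, qq hF, ← hswap hF v x, hv, one_pow, mul_one]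
    have := hx ((t ^ q) • v)
    rw [hb, h1] at this
    exact ht this
  have hnd : b.Nondegenerate := ⟨hl, fun x hx => hl x fun y => hrefl y x (hx y)⟩
  have ec : Nat.card (annih hF ψ A) = Nat.card (b.orthogonal A') := by
    refine Nat.card_congr (Equiv.subtypeEquivRight fun c => ?_)
    show (∀ a ∈ A, ψ ⟪a, c⟫ = 0) ↔ ∀ a ∈ A', b a c = 0
    exact forall₂_congr fun a _ => by rw [hb]
  rw [ec, show Nat.card A = Nat.card A' from rfl,
    Module.natCard_eq_pow_finrank (K := ZMod p) (V := b.orthogonal A'),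
    Module.natCard_eq_pow_finrank (K := ZMod p) (V := A'), ← pow_add,
    LinearMap.BilinForm.finrank_orthogonal hnd,
    Nat.sub_add_cancel (Submodule.finrank_le A'),
    ← Module.natCard_eq_pow_finrank]
  simp [hF, ← pow_mul]

/-- A functional separating an element from an additive subgroup. -/
theorem exists_functional_at {p : ℕ} [Fact p.Prime] [CharP F p] (Z : AddSubgroup F) {x : F}
    (hx : x ∉ Z) : ∃ φ : F →+ ZMod p, φ x ≠ 0 ∧ ∀ z ∈ Z, φ z = 0 := by
  let _ : Algebra (ZMod p) F := ZMod.algebra F p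
  obtain ⟨f, hf, hfZ⟩ := Submodule.exists_dual_map_eq_bot_of_notMem
    (p := AddSubgroup.toZModSubmodule p Z) (x := x) hx inferInstance
  refine ⟨f.toAddMonoidHom, hf, fun z hz => ?_⟩
  have : f z ∈ (AddSubgroup.toZModSubmodule p Z).map f := ⟨z, hz, rfl⟩
  rwa [hfZ, Submodule.mem_bot] at this

variable {Ω : Type*} [MulAction (Cfsg.SU (2 + m) F q) Ω]

/-- Commutators of the stabiliser lie among the fixing transvections. -/
theorem comm_mem_zS (D : Dat F q) (ω : Ω) {v w : Fin m → F} (hv : v ∈ aS m D ω) (hw : w ∈ aS m D ω) :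
    ⟪v, w⟫ - ⟪w, v⟫ ∈ zS m D ω := by
  obtain ⟨a, ha, ha'⟩ := hv
  obtain ⟨b, hb, hb'⟩ := hw
  have h1 := okW_add D.hF ha hb
  have h2 := okW_add D.hF hb ha
  rw [add_comm w v, add_comm b a] at h2
  have hz : (⟪v, w⟫ - ⟪w, v⟫) + (⟪v, w⟫ - ⟪w, v⟫) ^ q = 0 := by
    rw [qsub D.hF, hswap D.hF, hswap D.hF]; ring
  refine ⟨hz, ?_⟩
  have e1 : El D (v + w) (a + b - ⟪w, v⟫) • ω = ω := by
    rw [← El_mul ha hb, mul_smul, hb', ha']
  have e2 : El D (v + w) (a + b - ⟪v, w⟫) • ω = ω := by
    have e := El_mul (D := D) hb ha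
    rw [add_comm w v, add_comm b a] at e
    rw [← e, mul_smul, ha', hb']
  have e : El D (0 : Fin m → F) (⟪v, w⟫ - ⟪w, v⟫) * El D (v + w) (a + b - ⟪v, w⟫) =
      El D (v + w) (a + b - ⟪w, v⟫) := by
    rw [El_mul (okW_zero D.hF hz) h2, zero_add, hzero_r D.hF, sub_zero]
    congr 1; ring
  calc _ = (El D (0 : Fin m → F) (⟪v, w⟫ - ⟪w, v⟫) * El D (v + w) (a + b - ⟪v, w⟫)) • ω := by
        rw [mul_smul, e2]
    _ = ω := by rw [e, e1]

/-- The image of the stabiliser is small unless all transvections at `p` fix the point. -/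
theorem card_aS_le (D : Dat F q) (ω : Ω) (hZ : zS m D ω ≠ skew D.hF) :
    Nat.card (aS m D ω) ≤ q ^ m := by
  obtain ⟨p, k, hp, hc, -, -⟩ := H3.exists_q_eq_pow D.hF
  haveI := Fact.mk hp
  obtain ⟨x, hx, hxZ⟩ : ∃ x, x ∈ skew D.hF ∧ x ∉ zS m D ω := by
    by_contra h; push Not at h; exact hZ (le_antisymm (zS_le ω) h)
  obtain ⟨φ, hφ, hφZ⟩ := exists_functional_at (p := p) (zS m D ω) hxZ
  let ψ : F →+ ZMod p := φ.comp (AddMonoidHom.mk' (fun t : F => t - t ^ q) fun a b => by
    rw [qadd D.hF]; ring)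
  have hψa : ∀ t, ψ t = φ (t - t ^ q) := fun t => rfl
  have hψ : ψ ≠ 0 := fun h => by
    obtain ⟨s, hs⟩ := H3.exists_sub_eq D.hF (show x + x ^ q = 0 from hx)
    have h1 := DFunLike.congr_fun h (-s)
    rw [hψa, qneg D.hF, show -s - -s ^ q = x by rw [← hs]; ring] at h1
    exact hφ h1
  have hsym : ∀ t, ψ (t ^ q) = (-1) * ψ t := fun t => by
    rw [hψa, hψa, qq D.hF, neg_one_mul, ← map_neg, neg_sub]
  have hle : aS m D ω ≤ annih D.hF ψ (aS m D ω) := fun w hw a ha => by
    rw [hψa, hswap D.hF]; exact hφZ _ (comm_mem_zS D ω ha hw)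
  have h1 := card_annih D.hF ψ hψ (-1) hsym (aS m D ω)
  have h2 : Nat.card (aS m D ω) ≤ Nat.card (annih D.hF ψ (aS m D ω)) :=
    Nat.card_le_card_of_injective (AddSubgroup.inclusion hle) (AddSubgroup.inclusion_injective hle)
  have h3 : Nat.card (aS m D ω) * Nat.card (aS m D ω) ≤ q ^ m * q ^ m := by
    rw [← pow_add, ← two_mul, ← h1]; exact Nat.mul_le_mul_right _ h2
  exact Nat.mul_self_le_mul_self_iff.mp h3

/-- The scalings of a parameter group. -/
def scales (hF : Fintype.card F = q ^ 2) (Z : AddSubgroup F) : Set (AddSubgroup F) :=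
  Set.range fun c : Fˣ => scale hF (c : F) Z

omit [Fintype F] in
lemma scales_nonempty [Fintype F] (hF : Fintype.card F = q ^ 2) (Z : AddSubgroup F) :
    1 ≤ (scales hF Z).ncard := by
  have : Finite (AddSubgroup F) := Finite.of_injective _ SetLike.coe_injective
  exact (Set.ncard_pos (Set.toFinite _)).mpr ⟨_, Set.mem_range_self 1⟩

include hF in
/-- A proper non-zero parameter group has more scalings than elements. -/
theorem card_scales (Z : AddSubgroup F) (hZ : Z ≤ skew hF) (h0 : Z ≠ ⊥) (h1 : Z ≠ skew hF) :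
    Nat.card Z + 1 ≤ (scales hF Z).ncard ∧ 2 * Nat.card Z ≤ q := by
  classical
  set K := MinIdx.multField Z with hK
  obtain ⟨z₀, hz₀, hz₀0⟩ : ∃ z ∈ Z, z ≠ 0 := by
    by_contra h; push Not at h; exact h0 (eq_bot_iff.mpr fun z hz => by simp [h z hz])
  have hKq : ∀ k : K, (k : F) ^ q = k := fun k => by
    have e : (k : F) * z₀ + ((k : F) * z₀) ^ q = 0 := hZ (k.2 z₀ hz₀)
    have e0 : z₀ + z₀ ^ q = 0 := hZ hz₀
    rw [mul_pow, show z₀ ^ q = -z₀ by linear_combination e0] at e
    refine mul_right_cancel₀ hz₀0 ?_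
    linear_combination -e
  let Z' : Submodule K F :=
    { Z with smul_mem' := fun c z hz => by rw [Subfield.smul_def, smul_eq_mul]; exact c.2 z hz }
  let S' : Submodule K F :=
    { skew hF with
      smul_mem' := fun c z hz => by
        rw [Subfield.smul_def, smul_eq_mul]
        show (c : F) * z + ((c : F) * z) ^ q = 0
        rw [mul_pow, hKq c]
        have hz' : z + z ^ q = 0 := hz
        linear_combination (c : F) * hz' }
  have hlt : Z' < S' := lt_of_le_of_ne hZ fun h => h1 (by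
    ext x; exact (SetLike.ext_iff.mp h x :))
  have hK2 : 2 ≤ Nat.card K := Finite.one_lt_card
  have hdim := Submodule.finrank_lt_finrank_of_lt hlt
  have hZc : Nat.card Z = Nat.card K ^ Module.finrank K Z' := by
    rw [← Module.natCard_eq_pow_finrank]; exact Nat.card_congr (Equiv.refl _)
  have hSc : q = Nat.card K ^ Module.finrank K S' := by
    rw [← Module.natCard_eq_pow_finrank]; exact (card_skew hF).symm
  have hZK : Nat.card Z * Nat.card K ≤ q := by
    rw [hZc, hSc, ← pow_succ]; exact Nat.pow_le_pow_right (by omega) hdim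
  have hZ2 : 2 ≤ Nat.card Z := by
    have : Nontrivial Z := ⟨⟨⟨z₀, hz₀⟩, 0, fun h => hz₀0 (congrArg Subtype.val h)⟩⟩
    exact Finite.one_lt_card
  refine ⟨?_, le_trans (by rw [mul_comm]; exact Nat.mul_le_mul_left _ hK2) hZK⟩
  -- counting the fibres
  have : Finite (AddSubgroup F) := Finite.of_injective _ SetLike.coe_injective
  have := Fintype.ofFinite (scales hF Z)
  let f : Fˣ → scales hF Z := fun c => ⟨_, Set.mem_range_self c⟩
  have hKc : (Finset.univ.filter fun x : F => x ≠ 0 ∧ x ∈ K).card = Nat.card K - 1 := by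
    have h : Finset.univ.filter (fun x : F => x ≠ 0 ∧ x ∈ K) =
        (Finset.univ.filter fun x : F => x ∈ K).erase 0 := by ext; simp
    rw [h, Finset.card_erase_of_mem (by simp), Nat.card_eq_fintype_card, Fintype.card_subtype]
  have hsum : Nat.card Fˣ ≤ (scales hF Z).ncard * ((q + 1) * (Nat.card K - 1)) := by
    rw [← Nat.card_coe_set_eq, Nat.card_eq_fintype_card, Nat.card_eq_fintype_card, mul_comm,
      ← Finset.card_univ, ← Finset.card_univ]
    refine Finset.card_le_mul_card_image_of_maps_to (f := f) (fun _ _ => Finset.mem_univ _) _ ?_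
    intro i _
    rcases Finset.eq_empty_or_nonempty (Finset.univ.filter fun c => f c = i) with h | ⟨c₀, hc₀⟩
    · simp [h]
    rw [Finset.mem_filter] at hc₀
    have hmaps : ∀ c ∈ Finset.univ.filter (fun c => f c = i),
        ((c / c₀ : Fˣ) : F) ^ (q + 1) ∈ Finset.univ.filter fun x : F => x ≠ 0 ∧ x ∈ K := by
      intro c hc
      rw [Finset.mem_filter] at hc
      refine Finset.mem_filter.mpr ⟨Finset.mem_univ _, pow_ne_zero _ (Units.ne_zero _), fun z hz => ?_⟩
      have heq : scale hF (c : F) Z = scale hF (c₀ : F) Z :=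
        congrArg Subtype.val (hc.2.trans hc₀.2.symm)
      have hm : (c : F) * (c : F) ^ q * z ∈ scale hF (c : F) Z := ⟨z, hz, rfl⟩
      rw [heq] at hm
      obtain ⟨w, hw, hwz⟩ := hm
      simp only [AddMonoidHom.coe_mulLeft] at hwz
      have hd : ((c / c₀ : Fˣ) : F) * c₀ = c := by rw [← Units.val_mul, div_mul_cancel]
      have hw' : ((c / c₀ : Fˣ) : F) ^ (q + 1) * z = w := by
        refine mul_left_cancel₀ (mul_ne_zero c₀.ne_zero (pow_ne_zero q c₀.ne_zero)) ?_
        rw [hwz, ← hd, mul_pow, pow_succ']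
        ring
      rw [hw']; exact hw
    have hbij : (Finset.univ.filter fun c => f c = i).card ≤
        ((q + 1) * (Finset.univ.filter fun x : F => x ≠ 0 ∧ x ∈ K).card) := by
      refine Finset.card_le_mul_card_image_of_maps_to hmaps _ fun k hk => ?_
      rw [Finset.mem_filter] at hk
      have hkq : k ^ q = k := hKq ⟨k, hk.2.2⟩
      refine le_trans (Finset.card_le_card_of_injOn (fun c => ((c / c₀ : Fˣ) : F))
        (t := Finset.univ.filter fun x : F => x ^ (q + 1) = k) ?_ ?_) (le_of_eq ?_)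
      · intro c hc
        simp only [Finset.coe_filter, Set.mem_setOf_eq, Finset.mem_univ, true_and] at hc ⊢
        exact hc.2
      · intro a _ b _ hab
        exact div_left_inj.mp (Units.ext hab)
      · have e := H3.card_norm_eq hF hk.2.1 hkq
        rw [Nat.card_eq_fintype_card, Fintype.card_subtype] at e
        exact e
    rw [hKc] at hbij
    exact hbij
  rw [H3.card_units_eq hF] at hsum
  have h3 : q - 1 ≤ (scales hF Z).ncard * (Nat.card K - 1) := by
    refine Nat.le_of_mul_le_mul_right ?_ (Nat.succ_pos q)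
    calc (q - 1) * (q + 1) ≤ _ := hsum
      _ = _ := by rw [Nat.succ_eq_add_one]; ring
  by_contra hle
  push Not at hle
  have h4 : q - 1 ≤ Nat.card Z * (Nat.card K - 1) :=
    h3.trans (Nat.mul_le_mul_right _ (by omega))
  rw [Nat.mul_sub_one] at h4
  have hq2 := H3.two_le_q hF
  clear hSc hZc
  generalize Nat.card Z * Nat.card K = P at h4 hZK
  generalize Nat.card Z = z at h4 hZ2
  omega

end Cfsg.Agent.H2.MinU
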