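import Cfsg.Agent.H2.MinU.Radical
import Cfsg.Agent.H2.MinU.Classes

/-!
Isotropic points, their number, and fixing all transvections with a given centre.
-/

set_option autoImplicit false

namespace Cfsg.Agent.H2.MinU

open Matrix MulAction

variable {F : Type*} [Field F] [Fintype F] {q n m : ℕ}

local notation "⟪" u ", " v "⟫" => Cfsg.hermForm _ F q u v

/-- All transvections centred at `v` fix `w`. -/
def TF {Ω : Type*} [MulAction (Cfsg.SU n F q) Ω] (hF : Fintype.card F = q ^ 2) (v : Fin n → F)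
    (w : Ω) : Prop :=
  ∀ a, a + a ^ q = 0 → E hF v 0 a • w = w

section TF

variable (hF : Fintype.card F = q ^ 2) {Ω : Type*} [MulAction (Cfsg.SU n F q) Ω]

lemma TF.act {v : Fin n → F} {w : Ω} (hv : ⟪v, v⟫ = 0) (h : TF hF v w) (g : Cfsg.SU n F q) :
    TF hF (MinU.act g v) (g • w) := fun a ha => by
  have e := E_conj hF g (ok_zero hv ha hF)
  rw [act_zero] at e
  rw [← e, smul_smul, inv_mul_cancel_right, mul_smul, h a ha]

lemma tf_smul {v : Fin n → F} {w : Ω} (hv : ⟪v, v⟫ = 0) {c : F} (hc : c ≠ 0) :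
    TF hF (c • v) w ↔ TF hF v w := by
  have key : ∀ (v : Fin n → F) (c : F), ⟪v, v⟫ = 0 → c ≠ 0 → TF hF v w → TF hF (c • v) w := by
    intro v c hv hc h a ha
    rw [E_smul hF hc (ok_zero (by rw [hsmul_l hF, hsmul_r hF, hv, mul_zero, mul_zero]) ha hF), smul_zero]
    refine h _ ?_
    rw [mul_pow, mul_pow, qq hF]
    linear_combination (c * c ^ q) * ha
  refine ⟨fun h => ?_, key v c hv hc⟩
  have := key (c • v) c⁻¹ (by rw [hsmul_l hF, hsmul_r hF, hv, mul_zero, mul_zero]) (inv_ne_zero hc) h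
  rwa [inv_smul_smul₀ hc] at this

end TF

variable (D : Dat F q)

/-- The stabiliser of the isotropic point. -/
def pst (m : ℕ) : Subgroup (Cfsg.SU (2 + m) F q) where
  carrier := {g | ∃ c : F, c ≠ 0 ∧ act g (D.p m) = c • D.p m}
  one_mem' := ⟨1, one_ne_zero, by rw [act_one, one_smul]⟩
  mul_mem' := by
    rintro g h ⟨a, ha0, ha⟩ ⟨b, hb0, hb⟩
    exact ⟨b * a, mul_ne_zero hb0 ha0, by rw [act_mul, hb, act_smul, ha, smul_smul]⟩
  inv_mem' := by
    rintro g ⟨a, ha0, ha⟩
    refine ⟨a⁻¹, inv_ne_zero ha0, ?_⟩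
    apply act_injective g
    rw [act_act_inv, act_smul, ha, smul_smul, inv_mul_cancel₀ ha0, one_smul]

/-- The number of isotropic points is the index of the stabiliser of one. -/
theorem index_pst (hm : 1 ≤ m) : (pst D m).index = pts q (2 + m) := by
  classical
  have hq := H3.two_le_q D.hF
  have h1 := card_orbit_mul_stab (⊤ : Subgroup (Cfsg.SU (2 + m) F q)) (D.p m)
  set St := stabilizer (Cfsg.SU (2 + m) F q) (D.p m) with hSt
  have horb := card_orbit_iso D.hF (by omega : 3 ≤ 2 + m) D.p_ne D.p_iso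
  have hG : Nat.card (Cfsg.SU (2 + m) F q) = (q ^ 2 - 1) * pts q (2 + m) * Nat.card St := by
    rw [← horb, ← Nat.card_coe_set_eq, ← Nat.card_prod]
    exact Nat.card_congr (MulAction.orbitProdStabilizerEquivGroup _ _).symm
  -- the scalar character of the point stabiliser
  have hmem : ∀ g : pst D m, act g.1 (D.p m) = ⟪act g.1 (D.p m), D.p' m⟫ • D.p m := fun g => by
    obtain ⟨c, -, hc⟩ := g.2
    rw [hc, hsmul_l D.hF, D.p_p', mul_one]
  have hne : ∀ g : pst D m, ⟪act g.1 (D.p m), D.p' m⟫ ≠ 0 := fun g h =>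
    act_ne_zero g.1 D.p_ne (by rw [hmem g, h, zero_smul])
  let χ : pst D m →* Fˣ :=
    MonoidHom.mk' (fun g => Units.mk0 _ (hne g)) fun g h => Units.ext (by
      simp only [Units.val_mk0, Units.val_mul]
      rw [Subgroup.coe_mul, act_mul, hmem h, act_smul, hmem g, smul_smul, hsmul_l D.hF,
        hsmul_l D.hF, hsmul_l D.hF, D.p_p']
      ring)
  have hχ : χ.range = ⊤ := by
    rw [eq_top_iff]
    rintro c -
    obtain ⟨g, hg⟩ := exists_levL_scalar D hm c.ne_zero
    refine ⟨⟨g.1, cc g, cc_ne g, act_p g⟩, Units.ext ?_⟩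
    simpa [χ, cc] using hg
  have hker : Nat.card χ.ker = Nat.card St := by
    refine Nat.card_congr
      { toFun := fun g => ⟨g.1.1, ?_⟩
        invFun := fun g => ⟨⟨g.1, 1, one_ne_zero, by rw [one_smul]; exact g.2⟩, ?_⟩
        left_inv := fun g => rfl
        right_inv := fun g => rfl }
    · show act g.1.1 (D.p m) = D.p m
      rw [hmem g.1]
      have := congrArg Units.val g.2
      simp [χ] at this
      rw [this, one_smul]
    · refine MonoidHom.mem_ker.mpr (Units.ext ?_)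
      show ⟪act g.1 (D.p m), D.p' m⟫ = 1
      rw [show act g.1 (D.p m) = D.p m from g.2, D.p_p']
  have hP := χ.ker.card_mul_index
  rw [Subgroup.index_ker, hχ, Subgroup.card_top, hker, H3.card_units_eq D.hF] at hP
  have h2 := (pst D m).card_mul_index
  rw [hG, ← hP] at h2
  have hpos : 0 < Nat.card St * ((q - 1) * (q + 1)) :=
    Nat.mul_pos Nat.card_pos (Nat.mul_pos (by omega) (by omega))
  refine Nat.eq_of_mul_eq_mul_left hpos (h2.trans ?_)
  rw [show (q ^ 2 - 1) = (q - 1) * (q + 1) by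
    rw [mul_comm, ← Nat.sq_sub_sq, one_pow]]
  ring

/-- The relation between points and the fixed points of their transvections. -/
def RT {Ω : Type*} [MulAction (Cfsg.SU (2 + m) F q) Ω] (D : Dat F q) (w : Ω)
    (l : Cfsg.SU (2 + m) F q ⧸ pst D m) : Prop :=
  TF D.hF (act l.out (D.p m)) w

/-- One less than the number of points is not a degree with this many fixed points. -/
theorem false_of_fix_count {Ω : Type*} [MulAction (Cfsg.SU (2 + m) F q) Ω] [Finite Ω]
    [IsPretransitive (Cfsg.SU (2 + m) F q) Ω] (hm : 1 ≤ m) (S : Set Ω)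
    (hS : ∀ w, w ∈ S ↔ TF D.hF (D.p m) w) (hN : Nat.card Ω + 1 = pts q (2 + m))
    (hx0 : 0 < S.ncard) (hx : S.ncard < Nat.card Ω) : False := by
  have hout : ∀ g : Cfsg.SU (2 + m) F q, ∃ c : F, c ≠ 0 ∧
      act (QuotientGroup.mk g : Cfsg.SU (2 + m) F q ⧸ pst D m).out (D.p m) =
        c • act g (D.p m) := fun g => by
    obtain ⟨h, hh⟩ := QuotientGroup.mk_out_eq_mul (pst D m) g
    obtain ⟨c, hc0, hc⟩ := h.2
    exact ⟨c, hc0, by rw [hh, act_mul, hc, act_smul]⟩
  obtain ⟨w₀, -⟩ : S.Nonempty := (Set.ncard_pos (Set.toFinite _)).mp hx0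
  have hR : ∀ (g : Cfsg.SU (2 + m) F q) (w : Ω) (l : Cfsg.SU (2 + m) F q ⧸ pst D m), RT D w l → RT D (g • w) (g • l) := by
    intro g w l h
    obtain ⟨c, hc, e⟩ := hout (g * l.out)
    have hl : g • l = (QuotientGroup.mk (g * l.out) : Cfsg.SU (2 + m) F q ⧸ pst D m) := by
      conv_lhs => rw [← QuotientGroup.out_eq' l]
      rfl
    rw [RT, hl, e, act_mul, tf_smul D.hF (by rw [form_act, form_act, D.p_iso]) hc]
    exact TF.act D.hF (by rw [form_act, D.p_iso]) h g
  have key := double_count (RT (Ω := Ω) (m := m) D) hR w₀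
    (QuotientGroup.mk 1 : Cfsg.SU (2 + m) F q ⧸ pst D m)
  rw [show Nat.card (Cfsg.SU (2 + m) F q ⧸ pst D m) = pts q (2 + m) from index_pst D hm] at key
  have hS' : Nat.card {w : Ω // RT D w (QuotientGroup.mk 1 : Cfsg.SU (2 + m) F q ⧸ pst D m)} =
      S.ncard := by
    rw [← Nat.card_coe_set_eq]
    refine Nat.card_congr (Equiv.subtypeEquivRight fun w => ?_)
    obtain ⟨c, hc, e⟩ := hout 1
    rw [RT, e, act_one, tf_smul D.hF D.p_iso hc]
    exact (hS w).symm
  rw [hS'] at key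
  exact false_of_double_count hN key hx0 hx

end Cfsg.Agent.H2.MinU
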