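import Cfsg.Agent.H2.MinU.Frame

/-!
The radical of the stabiliser of a point and the invariants of its orbits.
-/

set_option autoImplicit false

namespace Cfsg.Agent.H2.MinU

open Matrix MulAction
open scoped Pointwise

variable {F : Type*} [Field F] [Fintype F] {q m : ℕ}

local notation "⟪" u ", " v "⟫" => Cfsg.hermForm _ F q u v

variable (D : Dat F q)

/-- Parameters of a radical element. -/
def OkW (q : ℕ) (w : Fin m → F) (a : F) : Prop := a + a ^ q + Cfsg.hermForm m F q w w = 0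

/-- The radical element. -/
noncomputable def El (w : Fin m → F) (a : F) : Cfsg.SU (2 + m) F q := E D.hF (D.p m) (up w) a

variable {D}

lemma ok_of {w : Fin m → F} {a : F} (h : OkW q w a) (D : Dat F q) : Ok q (D.p m) (up w) a :=
  ⟨D.p_iso, D.p_up w, by rw [D.form_up]; exact h⟩

lemma okW_zero (hF : Fintype.card F = q ^ 2) {a : F} (ha : a + a ^ q = 0) :
    OkW q (0 : Fin m → F) a := by
  rw [OkW, hzero_l hF, add_zero, ha]

lemma okW_exists (hF : Fintype.card F = q ^ 2) (w : Fin m → F) : ∃ a, OkW q w a := by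
  obtain ⟨a, ha⟩ := H3.exists_trace_eq hF (a := -⟪w, w⟫) (by rw [qneg hF, hswap hF])
  exact ⟨a, by rw [OkW, ha, neg_add_cancel]⟩

lemma okW_sub (hF : Fintype.card F = q ^ 2) {w : Fin m → F} {a b : F} (h : OkW q w a) (h' : OkW q w b) :
    (a - b) + (a - b) ^ q = 0 := by
  rw [qsub hF]; unfold OkW at h h'; linear_combination h - h'

lemma okW_add (hF : Fintype.card F = q ^ 2) {v w : Fin m → F} {a b : F} (hv : OkW q v a) (hw : OkW q w b) :
    OkW q (v + w) (a + b - ⟪w, v⟫) := by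
  unfold OkW at hv hw ⊢
  rw [qsub hF, qadd hF, hswap hF w v, hadd_l hF, hadd_r hF, hadd_r hF]
  linear_combination hv + hw

lemma okW_neg (hF : Fintype.card F = q ^ 2) {w : Fin m → F} {a : F} (h : OkW q w a) :
    OkW q (-w) (a ^ q) := by
  unfold OkW at h ⊢
  rw [qq hF, hneg_l hF, hneg_r hF, neg_neg]
  linear_combination h

lemma El_mul {v w : Fin m → F} {a b : F} (hv : OkW q v a) (hw : OkW q w b) :
    El D v a * El D w b = El D (v + w) (a + b - ⟪w, v⟫) := by
  rw [El, El, El, E_mul D.hF (ok_of hv D) (ok_of hw D), map_add, D.form_up]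

lemma El_zero : El D (0 : Fin m → F) 0 = 1 := by rw [El, map_zero, E_zero D.hF D.p_iso]

lemma El_inv {w : Fin m → F} {a : F} (h : OkW q w a) : (El D w a)⁻¹ = El D (-w) (a ^ q) := by
  rw [El, El, E_inv D.hF (ok_of h D), map_neg]

lemma El_trans (a : F) : El D (0 : Fin m → F) a = E D.hF (D.p m) 0 a := by rw [El, map_zero]

lemma El_inj {v w : Fin m → F} {a b : F} (hv : OkW q v a) (hw : OkW q w b)
    (h : El D v a = El D w b) : v = w ∧ a = b := by
  have key : act (El D v a) (D.p' m) = act (El D w b) (D.p' m) := by rw [h]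
  rw [El, El, act_E D.hF (ok_of hv D), act_E D.hF (ok_of hw D)] at key
  simp only [D.p'_p, D.p'_up, one_smul, zero_smul, sub_zero, mul_one] at key
  have h1 := congrArg down key
  simp only [map_add, map_smul, down_up, D.down_p, D.down_p', smul_zero, add_zero, zero_add] at h1
  refine ⟨h1, ?_⟩
  subst h1
  have h2 := congrArg (fun x => ⟪x, D.p' m⟫) key
  simpa [hadd_l D.hF, hsmul_l D.hF, D.p'_iso, D.p_p'] using h2

lemma El_conj (g : Lev D m) {w : Fin m → F} {a : F} (h : OkW q w a) :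
    g.1 * El D w a * g.1⁻¹ = El D (g • w) (cc g * cc g ^ q * a) := by
  rw [El, E_conj D.hF g.1 (ok_of h D), act_p, E_smul D.hF (cc_ne g) (by
    have := ok_act g.1 (ok_of h D); rwa [act_p] at this), El, act_up_smul]

lemma okW_smul (g : Lev D m) {w : Fin m → F} {a : F} (h : OkW q w a) :
    OkW q (g • w) (cc g * cc g ^ q * a) := by
  have h1 := (ok_smul D.hF (cc g) (x := act g.1 (up w)) (p := D.p m) (a := a)
    ⟨D.p_iso, ?_, ?_⟩).2.2
  · rw [← act_up_smul, D.form_up] at h1; exact h1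
  · have e := form_act g.1 (D.p m) (up w)
    rw [D.p_up, act_p, hsmul_l D.hF] at e
    exact (mul_eq_zero.mp e).resolve_left (cc_ne g)
  · rw [form_act, D.form_up]; exact h

variable (D) in
/-- The radical. -/
def Qg (m : ℕ) : Subgroup (Cfsg.SU (2 + m) F q) where
  carrier := {g | ∃ (w : Fin m → F) (a : F), OkW q w a ∧ g = El D w a}
  one_mem' := ⟨0, 0, okW_zero D.hF (by rw [zero_pow (q_ne_zero D.hF), add_zero]), El_zero.symm⟩
  mul_mem' := by
    rintro _ _ ⟨v, a, hv, rfl⟩ ⟨w, b, hw, rfl⟩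
    exact ⟨_, _, okW_add D.hF hv hw, El_mul hv hw⟩
  inv_mem' := by
    rintro _ ⟨w, a, hw, rfl⟩
    exact ⟨_, _, okW_neg D.hF hw, El_inv hw⟩

lemma El_mem {w : Fin m → F} {a : F} (h : OkW q w a) : El D w a ∈ Qg D m := ⟨w, a, h, rfl⟩

lemma lev_normalises (g : Lev D m) {x : Cfsg.SU (2 + m) F q} (hx : x ∈ Qg D m) :
    g.1 * x * g.1⁻¹ ∈ Qg D m := by
  obtain ⟨w, a, h, rfl⟩ := hx
  rw [El_conj g h]; exact El_mem (okW_smul g h)

/-- The order of the radical. -/
theorem card_Qg (D : Dat F q) (m : ℕ) : Nat.card (Qg D m) = q ^ (2 * m + 1) := by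
  classical
  let f : (Σ w : Fin m → F, {a : F // OkW q w a}) → Qg D m := fun p => ⟨El D p.1 p.2.1, El_mem p.2.2⟩
  have hf : Function.Bijective f := by
    constructor
    · rintro ⟨v, a, ha⟩ ⟨w, b, hb⟩ h
      obtain ⟨rfl, rfl⟩ := El_inj ha hb (congrArg Subtype.val h)
      rfl
    · rintro ⟨_, w, a, h, rfl⟩
      exact ⟨⟨w, a, h⟩, rfl⟩
  have hfib : ∀ w : Fin m → F, Nat.card {a : F // OkW q w a} = q := fun w => by
    obtain ⟨a₀, ha₀⟩ := okW_exists D.hF w
    refine Eq.trans ?_ (H3.card_trace_zero D.hF)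
    exact Nat.card_congr
      { toFun := fun a => ⟨a.1 - a₀, okW_sub D.hF a.2 ha₀⟩
        invFun := fun t => ⟨t.1 + a₀, by
          have ht := t.2
          unfold OkW at ha₀ ⊢
          rw [qadd D.hF]
          linear_combination ha₀ + ht⟩
        left_inv := fun a => Subtype.ext (sub_add_cancel _ _)
        right_inv := fun t => Subtype.ext (add_sub_cancel_right _ _) }
  rw [← Nat.card_eq_of_bijective f hf, Nat.card_sigma, Finset.sum_congr rfl fun w _ => hfib w,
    Finset.sum_const, Finset.card_univ, Fintype.card_fun, Fintype.card_fin, D.hF, smul_eq_mul,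
    ← pow_mul, ← pow_succ]

/-- The trace-zero elements. -/
def skew (hF : Fintype.card F = q ^ 2) : AddSubgroup F where
  carrier := {a | a + a ^ q = 0}
  zero_mem' := by simp [zero_pow (q_ne_zero hF)]
  add_mem' {a b} ha hb := by
    show a + b + (a + b) ^ q = 0
    have ha' : a + a ^ q = 0 := ha
    have hb' : b + b ^ q = 0 := hb
    rw [qadd hF]; linear_combination ha' + hb' 
  neg_mem' {a} ha := by
    show -a + (-a) ^ q = 0
    have ha' : a + a ^ q = 0 := ha
    rw [qneg hF]; linear_combination -ha' 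

lemma mem_skew {hF : Fintype.card F = q ^ 2} {a : F} : a ∈ skew hF ↔ a + a ^ q = 0 := Iff.rfl

lemma card_skew (hF : Fintype.card F = q ^ 2) : Nat.card (skew hF) = q := H3.card_trace_zero hF

variable {Ω : Type*} [MulAction (Cfsg.SU (2 + m) F q) Ω]

variable (D m) in
/-- Transvection parameters fixing a point. -/
def zS (ω : Ω) : AddSubgroup F where
  carrier := {a | a + a ^ q = 0 ∧ El D (0 : Fin m → F) a • ω = ω}
  zero_mem' := ⟨by simp [zero_pow (q_ne_zero D.hF)], by rw [El_zero, one_smul]⟩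
  add_mem' {a b} ha hb := by
    refine ⟨(skew D.hF).add_mem ha.1 hb.1, ?_⟩
    have e := El_mul (D := D) (okW_zero D.hF ha.1) (okW_zero (m := m) D.hF hb.1)
    rw [add_zero, hzero_l D.hF, sub_zero] at e
    rw [← e, mul_smul, hb.2, ha.2]
  neg_mem' {a} ha := by
    refine ⟨(skew D.hF).neg_mem ha.1, ?_⟩
    have e := El_inv (D := D) (okW_zero (m := m) D.hF ha.1)
    rw [neg_zero, show a ^ q = -a by linear_combination ha.1] at e
    rw [← e, inv_smul_eq_iff, ha.2]

lemma zS_le (ω : Ω) : zS m D ω ≤ skew D.hF := fun _ h => h.1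

variable (D m) in
/-- The image of the stabiliser in the radical. -/
def aS (ω : Ω) : AddSubgroup (Fin m → F) where
  carrier := {w | ∃ a, OkW q w a ∧ El D w a • ω = ω}
  zero_mem' := ⟨0, okW_zero D.hF (by simp [zero_pow (q_ne_zero D.hF)]), by rw [El_zero, one_smul]⟩
  add_mem' := by
    rintro v w ⟨a, ha, ha'⟩ ⟨b, hb, hb'⟩
    exact ⟨_, okW_add D.hF ha hb, by rw [← El_mul ha hb, mul_smul, hb', ha']⟩
  neg_mem' := by
    rintro w ⟨a, ha, ha'⟩
    exact ⟨_, okW_neg D.hF ha, by rw [← El_inv ha, inv_smul_eq_iff, ha']⟩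

lemma mem_aS {ω : Ω} {w : Fin m → F} : w ∈ aS m D ω ↔ ∃ a, OkW q w a ∧ El D w a • ω = ω := Iff.rfl

lemma zS_smul_Q (ω : Ω) {g : Cfsg.SU (2 + m) F q} (hg : g ∈ Qg D m) :
    zS m D (g • ω) = zS m D ω := by
  obtain ⟨w, b, hw, rfl⟩ := hg
  ext a
  refine and_congr_right fun ha => ?_
  have e : El D (0 : Fin m → F) a * El D w b = El D w b * El D 0 a := by
    rw [El_mul (okW_zero D.hF ha) hw, El_mul hw (okW_zero D.hF ha)]
    simp [hzero_l D.hF, hzero_r D.hF, add_comm]
  rw [smul_smul, e, mul_smul, smul_left_cancel_iff]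

lemma aS_smul_Q (ω : Ω) {g : Cfsg.SU (2 + m) F q} (hg : g ∈ Qg D m) :
    aS m D (g • ω) = aS m D ω := by
  have key : ∀ g ∈ Qg D m, ∀ (ω : Ω) w, w ∈ aS m D ω → w ∈ aS m D (g • ω) := by
    rintro g ⟨v, b, hv, rfl⟩ ω w ⟨a, ha, hfix⟩
    have hva := okW_add D.hF hv ha
    refine ⟨_, (show v + w + -v = w by abel) ▸ okW_add D.hF hva (okW_neg D.hF hv), ?_⟩
    have e := congrArg (· * (El D v b)⁻¹) (El_mul (D := D) hv ha)
    simp only [El_inv hv, El_mul hva (okW_neg D.hF hv)] at e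
    rw [show v + w + -v = w by abel] at e
    rw [← e, ← El_inv hv, mul_smul, mul_smul, inv_smul_smul, hfix]
  ext w
  refine ⟨fun h => ?_, key g hg ω w⟩
  have := key g⁻¹ ((Qg D m).inv_mem hg) _ w h
  rwa [inv_smul_smul] at this

/-- Scaling of a parameter group by a Levi element. -/
def scale (hF : Fintype.card F = q ^ 2) (c : F) (Z : AddSubgroup F) : AddSubgroup F :=
  Z.map (AddMonoidHom.mulLeft (c * c ^ q))

lemma zS_lev (ω : Ω) (g : Lev D m) : zS m D (g.1 • ω) = scale D.hF (cc g) (zS m D ω) := by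
  have hc : cc g * cc g ^ q ≠ 0 := mul_ne_zero (cc_ne g) (pow_ne_zero _ (cc_ne g))
  have hN : (cc g * cc g ^ q) ^ q = cc g * cc g ^ q := by rw [mul_pow, qq D.hF]; ring
  ext a
  simp only [scale, AddSubgroup.mem_map, AddMonoidHom.coe_mulLeft]
  constructor
  · rintro ⟨ha, hfix⟩
    refine ⟨(cc g * cc g ^ q)⁻¹ * a, ?_, mul_inv_cancel_left₀ hc a⟩
    have hb : (cc g * cc g ^ q)⁻¹ * a + ((cc g * cc g ^ q)⁻¹ * a) ^ q = 0 := by
      rw [mul_pow, inv_pow, hN]; linear_combination (cc g * cc g ^ q)⁻¹ * ha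
    refine ⟨hb, ?_⟩
    have e := El_conj g (okW_zero (m := m) D.hF hb)
    rw [smul_zero, mul_inv_cancel_left₀ hc] at e
    rw [← e, smul_smul, inv_mul_cancel_right, mul_smul, smul_left_cancel_iff] at hfix
    exact hfix
  · rintro ⟨b, ⟨hb, hfix⟩, rfl⟩
    refine ⟨by rw [mul_pow, hN]; linear_combination (cc g * cc g ^ q) * hb, ?_⟩
    have e := El_conj g (okW_zero (m := m) D.hF hb)
    rw [smul_zero] at e
    rw [← e, smul_smul, inv_mul_cancel_right, mul_smul, hfix]

lemma aS_lev (ω : Ω) (g : Lev D m) : aS m D (g.1 • ω) = g • aS m D ω := by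
  have key : ∀ (g : Lev D m) (ω : Ω) w, w ∈ aS m D ω → g • w ∈ aS m D (g.1 • ω) := by
    rintro g ω w ⟨a, ha, hfix⟩
    exact ⟨_, okW_smul g ha, by
      rw [← El_conj g ha, smul_smul, inv_mul_cancel_right, mul_smul, hfix]⟩
  ext w
  rw [AddSubgroup.mem_pointwise_smul_iff_inv_smul_mem]
  constructor
  · intro h
    have := key g⁻¹ _ w h
    rwa [InvMemClass.coe_inv, inv_smul_smul] at this
  · intro h
    have := key g ω _ h
    rwa [smul_inv_smul] at this

/-- The orbit of the radical. -/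
theorem card_orbit_Q (ω : Ω) :
    Nat.card (orbit (Qg D m) ω) * (Nat.card (zS m D ω) * Nat.card (aS m D ω)) = q ^ (2 * m + 1) := by
  classical
  have hc : ∀ w : aS m D ω, ∃ a, OkW q w.1 a ∧ El D w.1 a • ω = ω := fun w => w.2
  choose τ hτ1 hτ2 using hc
  have hshift : ∀ (w : Fin m → F) (a z : F), OkW q w a → z + z ^ q = 0 →
      El D (0 : Fin m → F) z * El D w a = El D w (z + a) := by
    intro w a z ha hz
    rw [El_mul (okW_zero D.hF hz) ha, zero_add, hzero_r D.hF, sub_zero]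
  have hok : ∀ (w : aS m D ω) (z : F), z + z ^ q = 0 → OkW q w.1 (z + τ w) := fun w z hz => by
    have := okW_add D.hF (okW_zero (m := m) D.hF hz) (hτ1 w)
    rwa [zero_add, hzero_r D.hF, sub_zero] at this
  let f : aS m D ω × zS m D ω → stabilizer (Qg D m) ω := fun p =>
    ⟨⟨El D p.1.1 (p.2.1 + τ p.1), El_mem (hok _ _ p.2.2.1)⟩, by
      show El D p.1.1 (p.2.1 + τ p.1) • ω = ω
      rw [← hshift _ _ _ (hτ1 _) p.2.2.1, mul_smul, hτ2 p.1]
      exact p.2.2.2⟩
  have hf : Function.Bijective f := by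
    constructor
    · rintro ⟨v, z⟩ ⟨w, t⟩ h
      obtain ⟨h1, h2⟩ := El_inj (hok _ _ z.2.1) (hok _ _ t.2.1)
        (congrArg (fun x : stabilizer (Qg D m) ω => x.1.1) h)
      obtain rfl : v = w := Subtype.ext h1
      exact Prod.ext rfl (Subtype.ext (add_right_cancel h2))
    · rintro ⟨⟨_, w, a, ha, rfl⟩, hx⟩
      have hx' : El D w a • ω = ω := hx
      set W : aS m D ω := ⟨w, a, ha, hx'⟩
      have hz : (a - τ W) + (a - τ W) ^ q = 0 := okW_sub D.hF ha (hτ1 W)
      refine ⟨(W, ⟨a - τ W, hz, ?_⟩), ?_⟩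
      · have e := hshift w (τ W) (a - τ W) (hτ1 W) hz
        rw [sub_add_cancel] at e
        calc _ = El D (0 : Fin m → F) (a - τ W) • El D w (τ W) • ω := by rw [hτ2 W]
          _ = ω := by rw [← mul_smul, e, hx']
      · exact Subtype.ext (Subtype.ext (congrArg (El D w) (sub_add_cancel _ _)))
  rw [mul_comm (Nat.card (zS m D ω)), ← Nat.card_prod, Nat.card_eq_of_bijective f hf,
    card_orbit_mul_stab, card_Qg]

end Cfsg.Agent.H2.MinU
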