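import Cfsg.Agent.H2.MinU.Pairing
import Cfsg.Agent.H2.MinU.Points

/-!
The orbits of the radical on a set smaller than the set of isotropic points.
-/

set_option autoImplicit false

namespace Cfsg.Agent.H2.MinU

open Matrix MulAction
open scoped Pointwise

variable {F : Type*} [Field F] [Fintype F] {q m : ℕ}

local notation "⟪" u ", " v "⟫" => Cfsg.hermForm _ F q u v

/-- The arithmetic of a small covering subgroup. -/
lemma small_arith {q X P k c : ℤ} (hq : 2 ≤ q) (hX : 2 * q ^ 2 ≤ X) (hk : 0 ≤ k) (hc : 2 * c ≤ q ^ 2)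
    (h1 : q * X * X - q * X ≤ k * (c - 1)) (hiso : q * q * P - P ≤ q * X * X + q * X) :
    q ^ 2 * P ≤ k * c := by
  have e1 : q ^ 2 * (q * X * X - q * X) ≤ k * c * (q ^ 2 - 2) :=
    calc _ ≤ q ^ 2 * (k * (c - 1)) := mul_le_mul_of_nonneg_left h1 (by positivity)
      _ ≤ _ := by nlinarith [mul_nonneg hk (sub_nonneg.mpr hc)]
  have hX0 : 0 ≤ X := le_trans (by positivity) hX
  have e2 : (q * X * X + q * X) * (q ^ 2 - 2) ≤ (q * X * X - q * X) * (q ^ 2 - 1) := by
    have e3 : 2 * q ^ 2 - 3 ≤ X := by linarith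
    have := mul_le_mul_of_nonneg_left e3 (show (0 : ℤ) ≤ q * X by positivity)
    nlinarith
  have hq21 : 0 < q ^ 2 - 1 := by nlinarith
  have hq22 : 0 < q ^ 2 - 2 := by nlinarith
  refine le_of_mul_le_mul_right ?_ (mul_pos hq21 hq22)
  calc q ^ 2 * P * ((q ^ 2 - 1) * (q ^ 2 - 2))
      = q ^ 2 * ((q * q * P - P) * (q ^ 2 - 2)) := by ring
    _ ≤ q ^ 2 * ((q * X * X + q * X) * (q ^ 2 - 2)) :=
        mul_le_mul_of_nonneg_left (mul_le_mul_of_nonneg_right hiso hq22.le) (by positivity)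
    _ ≤ q ^ 2 * ((q * X * X - q * X) * (q ^ 2 - 1)) :=
        mul_le_mul_of_nonneg_left e2 (by positivity)
    _ = q ^ 2 * (q * X * X - q * X) * (q ^ 2 - 1) := by ring
    _ ≤ k * c * (q ^ 2 - 2) * (q ^ 2 - 1) := mul_le_mul_of_nonneg_right e1 hq21.le
    _ = k * c * ((q ^ 2 - 1) * (q ^ 2 - 2)) := by ring

section Subgroups

variable (hF : Fintype.card F = q ^ 2)
include hF

/-- A fixed additive subgroup is large. -/
theorem orbit_subgroup_big (hm : 3 ≤ m) {A : AddSubgroup (Fin m → F)} (h0 : A ≠ ⊥)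
    (hA : Nat.card A ≤ q ^ m) : stabilizer (Cfsg.SU m F q) A ≠ ⊤ := by
  intro htop
  obtain ⟨a, ha, ha0⟩ : ∃ a ∈ A, a ≠ 0 := by
    by_contra h; push Not at h; exact h0 (eq_bot_iff.mpr fun a ha => by simp [h a ha])
  have hsub : orbit (Cfsg.SU m F q) a ⊆ (A : Set (Fin m → F)) := by
    rintro _ ⟨g, rfl⟩
    have hg : g • A = A := mem_stabilizer_iff.mp (htop ▸ Subgroup.mem_top g)
    exact hg ▸ AddSubgroup.smul_mem_pointwise_smul a g A ha
  have h1 := Set.ncard_le_ncard hsub (Set.toFinite _)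
  rw [← Nat.card_coe_set_eq (A : Set (Fin m → F))] at h1
  obtain ⟨k, rfl⟩ : ∃ k, m = k + 1 := ⟨m - 1, by omega⟩
  have h2 := orbit_lower hF (by omega) ha0
  have hq := H3.two_le_q hF
  have hX : 4 ≤ q ^ k := le_trans (by nlinarith) (Nat.pow_le_pow_right (by omega) (by omega : 2 ≤ k))
  have h3 : Nat.card (A : Set (Fin (k + 1) → F)) ≤ q * q ^ k := by
    rw [← pow_succ']; exact hA
  have h4 : q * q ^ k * 4 ≤ q * q ^ k * q ^ k := Nat.mul_le_mul_left _ hX
  have h5 : 0 < q * q ^ k := by positivity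
  omega

/-- Proper non-trivial additive subgroups are moved. -/
theorem stabilizer_ne_top (hm : 3 ≤ m) {A : AddSubgroup (Fin m → F)} (h0 : A ≠ ⊥) (h1 : A ≠ ⊤) :
    stabilizer (Cfsg.SU m F q) A ≠ ⊤ := by
  by_cases hA : Nat.card A ≤ q ^ m
  · exact orbit_subgroup_big hF hm h0 hA
  intro htop
  obtain ⟨p, k, hp, hc, -, -⟩ := H3.exists_q_eq_pow hF
  haveI := Fact.mk hp
  obtain ⟨φ, hφ, -⟩ := exists_functional_at (p := p) (⊥ : AddSubgroup F) (x := (1 : F)) (by simp)
  let ψ : F →+ ZMod p := φ.comp (AddMonoidHom.mk' (fun t : F => t + t ^ q) fun a b => by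
    rw [qadd hF]; ring)
  have hψa : ∀ t, ψ t = φ (t + t ^ q) := fun t => rfl
  have hψ : ψ ≠ 0 := fun h => by
    obtain ⟨s, hs⟩ := H3.exists_trace_eq hF (a := (1 : F)) (one_pow q)
    have := DFunLike.congr_fun h s
    rw [hψa, hs] at this
    exact hφ this
  have hcard := card_annih hF ψ hψ 1 (fun t => by rw [hψa, hψa, qq hF, one_mul, add_comm]) A
  have hC0 : annih hF ψ A ≠ ⊥ := fun h => by
    rw [h, AddSubgroup.card_bot, one_mul] at hcard
    refine h1 (AddSubgroup.eq_top_of_card_eq A (hcard.trans ?_))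
    simp [hF, pow_mul]
  have hC : Nat.card (annih hF ψ A) ≤ q ^ m := by
    by_contra h
    push Not at h hA
    have : q ^ m * q ^ m < Nat.card (annih hF ψ A) * Nat.card A := Nat.mul_lt_mul_of_lt_of_lt h hA
    rw [← pow_add, ← two_mul, hcard] at this
    omega
  refine orbit_subgroup_big hF hm hC0 hC (eq_top_iff.mpr fun g _ => mem_stabilizer_iff.mpr ?_)
  rw [← annih_smul, show g • A = A from mem_stabilizer_iff.mp (htop ▸ Subgroup.mem_top g)]

/-- The translates of a proper non-trivial additive subgroup are numerous. -/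
theorem le_card_orbit (hm : 3 ≤ m) {M : ℕ}
    (hM : ∀ H : Subgroup (Cfsg.SU m F q), H ≠ ⊤ → M ≤ H.index) {A : AddSubgroup (Fin m → F)}
    (h0 : A ≠ ⊥) (h1 : A ≠ ⊤) : M ≤ Nat.card (orbit (Cfsg.SU m F q) A) := by
  refine le_trans (hM _ (stabilizer_ne_top hF hm h0 h1)) (le_of_eq ?_)
  rw [index_stabilizer, Nat.card_coe_set_eq]

end Subgroups

variable {D : Dat F q} {Ω : Type*} [MulAction (Cfsg.SU (2 + m) F q) Ω] [Finite Ω]

/-- Orbits of the radical counted through both invariants. -/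
theorem invariants_bound (hm : 1 ≤ m) (ω : Ω) :
    (scales D.hF (zS m D ω)).ncard * Nat.card (orbit (Cfsg.SU m F q) (aS m D ω)) * q ^ (2 * m + 1) ≤
      Nat.card Ω * (Nat.card (zS m D ω) * Nat.card (aS m D ω)) := by
  classical
  have : Finite (AddSubgroup F) := Finite.of_injective _ SetLike.coe_injective
  have : Finite (AddSubgroup (Fin m → F)) := Finite.of_injective _ SetLike.coe_injective
  choose τ hτ using fun c : Fˣ => exists_levL_scalar D hm c.ne_zero
  have hs : ∀ S : scales D.hF (zS m D ω), ∃ c : Fˣ, scale D.hF (c : F) (zS m D ω) = S.1 :=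
    fun S => S.2
  choose cs hcs using hs
  let g : scales D.hF (zS m D ω) × orbit (Cfsg.SU m F q) (aS m D ω) →
      AddSubgroup F × AddSubgroup (Fin m → F) := fun p => (p.1.1, τ (cs p.1) • p.2.1)
  have hg : Function.Injective g := by
    rintro ⟨S, B⟩ ⟨T, C⟩ h
    obtain ⟨h1, h2⟩ := Prod.ext_iff.mp h
    obtain rfl : S = T := Subtype.ext h1
    exact Prod.ext rfl (Subtype.ext (smul_left_cancel _ h2))
  set z := Nat.card (zS m D ω) * Nat.card (aS m D ω) with hz
  have hzpos : 0 < z := Nat.mul_pos Nat.card_pos Nat.card_pos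
  have hinv : ∀ x ∈ Qg D m, ∀ w : Ω, (zS m D (x • w), aS m D (x • w)) = (zS m D w, aS m D w) :=
    fun x hx w => by rw [zS_smul_Q _ hx, aS_smul_Q _ hx]
  set o := Nat.card (orbit (Qg D m) ω) with ho
  have horb : o * z = q ^ (2 * m + 1) := card_orbit_Q ω
  have key := family_bound (Qg D m) (fun w : Ω => (zS m D w, aS m D w)) hinv Set.univ
    (fun _ _ _ _ => trivial) (Set.range g) (Set.toFinite _) o ?_
  · rw [Set.ncard_range_of_injective hg, Nat.card_prod, Nat.card_coe_set_eq, Set.ncard_univ] at key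
    calc _ = (scales D.hF (zS m D ω)).ncard * Nat.card (orbit (Cfsg.SU m F q) (aS m D ω)) * (o * z) := by
          rw [horb]
      _ = (scales D.hF (zS m D ω)).ncard * Nat.card (orbit (Cfsg.SU m F q) (aS m D ω)) * o * z := by
          ring
      _ ≤ _ := Nat.mul_le_mul_right _ key
  · rintro _ ⟨⟨S, B, l, rfl⟩, rfl⟩
    set G : Lev D m := τ (cs S) * inclL D l with hG
    have hcc : cc G = (cs S : F) := by rw [hG, cc_mul, cc_inclL, mul_one, hτ]
    have h1 : zS m D (G.1 • ω) = S.1 := by rw [zS_lev, hcc, hcs]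
    have h2 : aS m D (G.1 • ω) = τ (cs S) • (l • aS m D ω) := by
      rw [aS_lev, hG, mul_smul]
      congr 1
      ext w
      rw [AddSubgroup.mem_pointwise_smul_iff_inv_smul_mem]
      refine Iff.trans ?_ (AddSubgroup.mem_pointwise_smul_iff_inv_smul_mem (a := l)).symm
      rw [← map_inv, inclL_smul]
    refine ⟨G.1 • ω, trivial, Prod.ext h1 h2, le_of_eq ?_⟩
    have e := card_orbit_Q (D := D) (m := m) (G.1 • ω)
    have ec : Nat.card (l • aS m D ω : AddSubgroup (Fin m → F)) = Nat.card (aS m D ω) :=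
      card_smul_addSubgroup l _
    rw [h1, h2, ← hcs S, card_smul_addSubgroup, ec] at e
    have e2 : Nat.card (scale D.hF (cs S : F) (zS m D ω)) = Nat.card (zS m D ω) :=
      (Nat.card_congr ((zS m D ω).equivMapOfInjective _ (mul_right_injective₀
        (mul_ne_zero (cs S).ne_zero (pow_ne_zero _ (cs S).ne_zero)))).toEquiv).symm
    rw [e2, ← hz, ← horb] at e
    exact (Nat.eq_of_mul_eq_mul_right hzpos e).symm

/-- A point moved by a transvection at `p` has a regular orbit of the radical. -/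
theorem regular_of_moved (hm : 3 ≤ m) {M : ℕ}
    (hM : ∀ H : Subgroup (Cfsg.SU m F q), H ≠ ⊤ → M ≤ H.index)
    (hMR : pts q (2 + m) ≤ M * q ^ (m + 1)) (hN : Nat.card Ω < pts q (2 + m)) {ω : Ω}
    (hZ : zS m D ω ≠ skew D.hF) :
    zS m D ω = ⊥ ∧ aS m D ω = ⊥ ∧ Nat.card (orbit (Qg D m) ω) = q ^ (2 * m + 1) := by
  have hq := H3.two_le_q D.hF
  have hinv := invariants_bound (D := D) (m := m) (by omega) ω
  have hAle := card_aS_le D ω hZ
  have hsc : Nat.card (zS m D ω) ≤ (scales D.hF (zS m D ω)).ncard := by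
    by_cases h0 : zS m D ω = ⊥
    · rw [h0, AddSubgroup.card_bot]; exact scales_nonempty D.hF _
    · exact le_trans (Nat.le_succ _) (card_scales D.hF _ (zS_le ω) h0 hZ).1
  have hA : aS m D ω = ⊥ := by
    by_contra hA0
    have hk : M ≤ Nat.card (orbit (Cfsg.SU m F q) (aS m D ω)) := le_card_orbit D.hF hm hM hA0 fun h => by
      rw [h, AddSubgroup.card_top, Nat.card_eq_fintype_card, Fintype.card_fun, Fintype.card_fin, D.hF,
        ← pow_mul] at hAle
      have := Nat.pow_le_pow_iff_right (by omega : 1 < q) |>.mp hAle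
      omega
    have h1 : Nat.card (zS m D ω) * M * q ^ (2 * m + 1) ≤
        Nat.card Ω * (Nat.card (zS m D ω) * q ^ m) :=
      calc _ ≤ (scales D.hF (zS m D ω)).ncard * Nat.card (orbit (Cfsg.SU m F q) (aS m D ω)) *
            q ^ (2 * m + 1) := Nat.mul_le_mul (Nat.mul_le_mul hsc hk) le_rfl
        _ ≤ Nat.card Ω * (Nat.card (zS m D ω) * Nat.card (aS m D ω)) := hinv
        _ ≤ _ := Nat.mul_le_mul le_rfl (Nat.mul_le_mul le_rfl hAle)
    have h2 : M * q ^ (m + 1) * (Nat.card (zS m D ω) * q ^ m) ≤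
        Nat.card Ω * (Nat.card (zS m D ω) * q ^ m) := by
      refine le_trans (le_of_eq ?_) h1
      rw [show 2 * m + 1 = m + 1 + m by ring, pow_add]; ring
    have h3 := Nat.le_of_mul_le_mul_right h2
      (Nat.mul_pos Nat.card_pos (Nat.pow_pos (by omega)))
    omega
  have hk1 : 1 ≤ Nat.card (orbit (Cfsg.SU m F q) (aS m D ω)) := by
    have : Finite (AddSubgroup (Fin m → F)) := Finite.of_injective _ SetLike.coe_injective
    have : Nonempty (orbit (Cfsg.SU m F q) (aS m D ω)) := ⟨⟨_, mem_orbit_self _⟩⟩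
    exact Nat.card_pos
  have hZ0 : zS m D ω = ⊥ := by
    by_contra h0
    obtain ⟨h1, h2⟩ := card_scales D.hF _ (zS_le ω) h0 hZ
    rw [hA, AddSubgroup.card_bot, mul_one] at hinv
    have h3 : (Nat.card (zS m D ω) + 1) * q ^ (2 * m + 1) ≤ Nat.card Ω * Nat.card (zS m D ω) := by
      refine le_trans (Nat.mul_le_mul_right _ (h1.trans (Nat.le_mul_of_pos_right _ ?_))) hinv
      rw [hA] at hk1; exact hk1
    rw [add_comm 2 m, pts_succ_succ] at hN
    have h4 := pts_small hq m (by omega)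
    rw [pow_succ q (2 * m)] at h3 hN
    set z := Nat.card (zS m D ω)
    have h6 : Nat.card Ω * z ≤ (q ^ (2 * m) * q + q ^ (2 * m)) * z :=
      Nat.mul_le_mul_right _ (by omega)
    nlinarith [Nat.one_le_pow (2 * m) q (by omega)]
  refine ⟨hZ0, hA, ?_⟩
  have h := card_orbit_Q (D := D) (m := m) ω
  rw [hZ0, hA, AddSubgroup.card_bot, AddSubgroup.card_bot, mul_one, mul_one] at h
  exact h

variable (D) in
/-- The points fixed by all transvections at `p`. -/
def fixT (m : ℕ) (Ω : Type*) [MulAction (Cfsg.SU (2 + m) F q) Ω] : Set Ω :=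
  {w | zS m D w = skew D.hF}

omit [Finite Ω] in
lemma mem_fixT {w : Ω} : w ∈ fixT D m Ω ↔ TF D.hF (D.p m) w := by
  constructor
  · intro h a ha
    have : a ∈ zS m D w := h ▸ (ha : a ∈ skew D.hF)
    rw [← El_trans]; exact this.2
  · intro h
    refine le_antisymm (zS_le w) fun a ha => ⟨ha, ?_⟩
    rw [El_trans]; exact h a ha

/-- Exactly one orbit of the radical is moved by the transvections at `p`. -/
theorem structure_fix [IsPretransitive (Cfsg.SU (2 + m) F q) Ω] (hm : 3 ≤ m) {M : ℕ}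
    (hM : ∀ H : Subgroup (Cfsg.SU m F q), H ≠ ⊤ → M ≤ H.index)
    (hMR : pts q (2 + m) ≤ M * q ^ (m + 1)) (hN : Nat.card Ω < pts q (2 + m))
    (hN2 : 2 ≤ Nat.card Ω) :
    (fixT D m Ω).ncard + q ^ (2 * m + 1) = Nat.card Ω := by
  classical
  have hq := H3.two_le_q D.hF
  obtain ⟨ω, hω⟩ : ∃ ω : Ω, ω ∉ fixT D m Ω := by
    by_contra h
    push Not at h
    obtain ⟨ω⟩ : Nonempty Ω := (Nat.card_pos_iff.mp (by omega)).1
    have h1 : Nat.card Ω ≤ 1 :=
      card_le_one_of_trans_fix D.hF (n := 2 + m) (by omega) (by omega) ω fun v a hv0 hv ha => by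
        obtain ⟨g, hg⟩ : ∃ g : Cfsg.SU (2 + m) F q, g • D.p m = v := by
          have h1 : v ∈ orbit (Cfsg.SU (2 + m) F q) (D.p m) := by
            rw [orbit_eq_class D.hF (by omega) D.p_ne (Or.inr (by omega))]
            exact ⟨hv0, hv.trans D.p_iso.symm⟩
          exact h1
        have h2 := TF.act D.hF D.p_iso (mem_fixT.mp (h (g⁻¹ • ω))) g
        rw [smul_inv_smul, ← smul_eq_act, hg] at h2
        exact h2 a ha
    omega
  have horb : ∀ w : Ω, w ∉ fixT D m Ω → orbit (Qg D m) w ⊆ (fixT D m Ω)ᶜ ∧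
      (orbit (Qg D m) w).ncard = q ^ (2 * m + 1) := by
    intro w hw
    refine ⟨?_, ?_⟩
    · rintro _ ⟨g, rfl⟩ (hg : zS m D _ = skew D.hF)
      exact hw ((zS_smul_Q w g.2).symm.trans hg)
    · rw [← Nat.card_coe_set_eq]; exact (regular_of_moved hm hM hMR hN hw).2.2
  have hall : (fixT D m Ω)ᶜ = orbit (Qg D m) ω := by
    refine Set.Subset.antisymm (fun w hw => ?_) (horb ω hω).1
    by_contra hne
    have hd : Disjoint (orbit (Qg D m) ω) (orbit (Qg D m) w) := by
      rw [Set.disjoint_left]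
      rintro x hx hx'
      exact hne (by rw [← orbit_eq_iff.mpr hx, orbit_eq_iff.mpr hx']; exact mem_orbit_self w)
    have h1 := Set.ncard_union_eq hd (Set.toFinite _) (Set.toFinite _)
    have h2 : (orbit (Qg D m) ω ∪ orbit (Qg D m) w).ncard ≤ Nat.card Ω := by
      rw [← Set.ncard_univ]; exact Set.ncard_le_ncard (Set.subset_univ _)
    rw [(horb ω hω).2, (horb w hw).2] at h1
    rw [add_comm 2 m, pts_succ_succ] at hN
    have := pts_small hq m (by omega)
    have : q ^ (2 * m) ≤ q ^ (2 * m + 1) := Nat.pow_le_pow_right (by omega) (by omega)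
    omega
  rw [← (horb ω hω).2, ← hall]
  exact Set.ncard_add_ncard_compl _

/-- Orbits inside the fixed points of the transvections at `p`. -/
theorem fix_bound {ω : Ω} (hω : ω ∈ fixT D m Ω) :
    Nat.card (orbit (Cfsg.SU m F q) (aS m D ω)) * q ^ (2 * m) ≤
      (fixT D m Ω).ncard * Nat.card (aS m D ω) := by
  classical
  have : Finite (AddSubgroup (Fin m → F)) := Finite.of_injective _ SetLike.coe_injective
  set o := Nat.card (orbit (Qg D m) ω) with ho
  have horb : o * Nat.card (aS m D ω) = q ^ (2 * m) := by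
    have h := card_orbit_Q (D := D) (m := m) ω
    rw [show zS m D ω = skew D.hF from hω, card_skew, pow_succ] at h
    refine Nat.eq_of_mul_eq_mul_right (show 0 < q by have := H3.two_le_q D.hF; omega) ?_
    rw [← h]; ring
  have key := family_bound (Qg D m) (fun w : Ω => aS m D w) (fun g hg w => aS_smul_Q w hg)
    (fixT D m Ω) (fun g hg w hw => (zS_smul_Q w hg).trans hw)
    (orbit (Cfsg.SU m F q) (aS m D ω)) (Set.toFinite _) o ?_
  · rw [← horb, ← mul_assoc, Nat.card_coe_set_eq (orbit (Cfsg.SU m F q) (aS m D ω))]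
    exact Nat.mul_le_mul_right _ key
  · rintro _ ⟨l, rfl⟩
    have h1 : zS m D ((inclL D l).1 • ω) = skew D.hF := by
      rw [zS_lev, cc_inclL, show zS m D ω = skew D.hF from hω]
      ext a
      simp [scale]
    have h2 : aS m D ((inclL D l).1 • ω) = l • aS m D ω := by
      rw [aS_lev]
      ext w
      rw [AddSubgroup.mem_pointwise_smul_iff_inv_smul_mem]
      refine Iff.trans ?_ (AddSubgroup.mem_pointwise_smul_iff_inv_smul_mem (a := l)).symm
      rw [← map_inv, inclL_smul]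
    refine ⟨(inclL D l).1 • ω, h1, h2, le_of_eq ?_⟩
    have e := card_orbit_Q (D := D) (m := m) ((inclL D l).1 • ω)
    have ec : Nat.card (l • aS m D ω : AddSubgroup (Fin m → F)) = Nat.card (aS m D ω) :=
      card_smul_addSubgroup l _
    rw [h1, h2, ec, card_skew, ← mul_assoc, pow_succ, mul_right_comm, ← horb] at e
    exact (Nat.eq_of_mul_eq_mul_right Nat.card_pos
      (Nat.eq_of_mul_eq_mul_right (show 0 < q by have := H3.two_le_q D.hF; omega) e)).symm

/-- The fixed points of the transvections at `p` are as many as in the action on points. -/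
theorem fix_lower (hm : 4 ≤ m)
    (hBig : ∀ C : AddSubgroup (Fin m → F), C ≠ ⊥ → C ≠ ⊤ → q ^ 2 ≤ Nat.card C →
      q ^ 2 * pts q m ≤ Nat.card (orbit (Cfsg.SU m F q) C) * Nat.card C)
    {ω : Ω} (hω : ω ∈ fixT D m Ω) (hA : aS m D ω ≠ ⊤) :
    q ^ 2 * pts q m ≤ (fixT D m Ω).ncard := by
  classical
  have hq := H3.two_le_q D.hF
  have hfb := fix_bound (D := D) (m := m) hω
  have hqm : 0 < q ^ (2 * m) := Nat.pow_pos (by omega)
  have hk1 : 1 ≤ Nat.card (orbit (Cfsg.SU m F q) (aS m D ω)) := by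
    have : Finite (AddSubgroup (Fin m → F)) := Finite.of_injective _ SetLike.coe_injective
    have : Nonempty (orbit (Cfsg.SU m F q) (aS m D ω)) := ⟨⟨_, mem_orbit_self _⟩⟩
    exact Nat.card_pos
  by_cases hA0 : aS m D ω = ⊥
  · rw [hA0, AddSubgroup.card_bot, mul_one] at hfb
    have := pts_small hq m (by omega)
    rw [hA0] at hk1
    have h2 : q ^ (2 * m) ≤ Nat.card (orbit (Cfsg.SU m F q) (⊥ : AddSubgroup (Fin m → F))) * q ^ (2 * m) :=
      Nat.le_mul_of_pos_left _ hk1
    omega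
  obtain ⟨p, f, hp, hc, -, hpq⟩ := H3.exists_q_eq_pow D.hF
  haveI := Fact.mk hp
  obtain ⟨φ, hφ, -⟩ := exists_functional_at (p := p) (⊥ : AddSubgroup F) (x := (1 : F)) (by simp)
  let ψ : F →+ ZMod p := φ.comp (AddMonoidHom.mk' (fun t : F => t + t ^ q) fun a b => by
    rw [qadd D.hF]; ring)
  have hψa : ∀ t, ψ t = φ (t + t ^ q) := fun t => rfl
  have hψ : ψ ≠ 0 := fun h => by
    obtain ⟨s, hs⟩ := H3.exists_trace_eq D.hF (a := (1 : F)) (one_pow q)
    have := DFunLike.congr_fun h s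
    rw [hψa, hs] at this
    exact hφ this
  have hcard := card_annih D.hF ψ hψ 1 (fun t => by rw [hψa, hψa, qq D.hF, one_mul, add_comm])
    (aS m D ω)
  set C := annih D.hF ψ (aS m D ω) with hC
  have hWc : Nat.card (Fin m → F) = q ^ (2 * m) := by simp [D.hF, pow_mul]
  have hC0 : C ≠ ⊥ := fun h => by
    rw [h, AddSubgroup.card_bot, one_mul, ← hWc] at hcard
    exact hA (AddSubgroup.eq_top_of_card_eq _ hcard)
  have hC1 : C ≠ ⊤ := fun h => by
    rw [h, AddSubgroup.card_top, hWc] at hcard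
    have h1 : Nat.card (aS m D ω) = 1 :=
      Nat.eq_of_mul_eq_mul_left hqm (hcard.trans (mul_one _).symm)
    exact hA0 (AddSubgroup.eq_bot_of_card_eq _ h1)
  have hkC : Nat.card (orbit (Cfsg.SU m F q) C) ≤ Nat.card (orbit (Cfsg.SU m F q) (aS m D ω)) := by
    have : Finite (AddSubgroup (Fin m → F)) := Finite.of_injective _ SetLike.coe_injective
    refine Nat.card_le_card_of_surjective
      (fun A => (⟨annih D.hF ψ A.1, ?_⟩ : orbit (Cfsg.SU m F q) C)) ?_
    · obtain ⟨g, hg⟩ := A.2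
      exact ⟨g, by simp only [← hg, hC, annih_smul]⟩
    · rintro ⟨_, g, rfl⟩
      exact ⟨⟨g • aS m D ω, mem_orbit _ _⟩, Subtype.ext (annih_smul D.hF ψ _ g)⟩
  have hx : Nat.card (orbit (Cfsg.SU m F q) C) * Nat.card C ≤ (fixT D m Ω).ncard := by
    refine Nat.le_of_mul_le_mul_right ?_ (Nat.card_pos (α := aS m D ω))
    rw [mul_assoc, hcard]
    exact (Nat.mul_le_mul_right _ hkC).trans hfb
  refine le_trans ?_ hx
  by_cases hbig : q ^ 2 ≤ Nat.card C
  · exact hBig C hC0 hC1 hbig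
  push Not at hbig
  -- a small subgroup is covered by one class of vectors
  let _ : Algebra (ZMod p) F := ZMod.algebra F p
  have h2C : 2 * Nat.card C ≤ q ^ 2 := by
    have e : Nat.card C = p ^ Module.finrank (ZMod p) (AddSubgroup.toZModSubmodule p C) := by
      rw [show Nat.card C = Nat.card (AddSubgroup.toZModSubmodule p C) from rfl,
        Module.natCard_eq_pow_finrank (K := ZMod p), Nat.card_zmod]
    rw [hpq, ← pow_mul, e] at hbig ⊢
    have hlt := (Nat.pow_lt_pow_iff_right hp.one_lt).mp hbig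
    calc 2 * p ^ _ ≤ p * p ^ _ := Nat.mul_le_mul_right _ hp.two_le
      _ = p ^ (_ + 1) := (pow_succ' _ _).symm
      _ ≤ _ := Nat.pow_le_pow_right hp.pos hlt
  obtain ⟨c, hcC, hc0⟩ : ∃ c ∈ C, c ≠ 0 := by
    by_contra h; push Not at h; exact hC0 (eq_bot_iff.mpr fun a ha => by simp [h a ha])
  obtain ⟨j, rfl⟩ : ∃ j, m = j + 1 := ⟨m - 1, by omega⟩
  have hcov := orbit_le_cover (G := Cfsg.SU (j + 1) F q) C hcC hc0
  have hlow := orbit_lower D.hF (by omega) hc0
  have hP := pts_int q j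
  set k := Nat.card (orbit (Cfsg.SU (j + 1) F q) C)
  set c' := Nat.card C
  have hc1 : 1 ≤ c' := Nat.card_pos
  set X := q ^ j with hX
  have hXq : 2 * q ^ 2 ≤ X := by
    have : q ^ 3 ≤ X := Nat.pow_le_pow_right (by omega) (by omega)
    nlinarith
  have hiso : (q : ℤ) * q * pts q (j + 1) - pts q (j + 1) ≤ q * X * X + q * X := by
    have e0 : (q : ℤ) ^ j = (X : ℤ) := by rw [hX]; push_cast; rfl
    rw [pow_succ (q : ℤ) j, e0] at hP
    clear_value X
    rcases Nat.even_or_odd j with he | ho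
    · rw [he.neg_one_pow] at hP
      nlinarith only [hP, hXq, hq]
    · rw [ho.neg_one_pow] at hP
      nlinarith only [hP, hXq, hq]
  have hcov' : (orbit (Cfsg.SU (j + 1) F q) c).ncard ≤ k * (c' - 1) := hcov
  have h2 : q * X * X ≤ k * (c' - 1) + q * X := hlow.trans (Nat.add_le_add_right hcov' _)
  have h1 : (q * X * X : ℤ) - q * X ≤ k * ((c' : ℤ) - 1) := by
    have h3 : ((k * (c' - 1) : ℕ) : ℤ) = k * ((c' : ℤ) - 1) := by
      rw [Nat.cast_mul, Nat.cast_sub hc1, Nat.cast_one]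
    have h4 : ((q * X * X : ℕ) : ℤ) ≤ ((k * (c' - 1) + q * X : ℕ) : ℤ) := Nat.cast_le.mpr h2
    rw [Nat.cast_add, h3, Nat.cast_mul, Nat.cast_mul] at h4
    linarith only [h4]
  have hX' : (2 : ℤ) * (q : ℤ) ^ 2 ≤ (X : ℤ) := by exact_mod_cast hXq
  have hc' : (2 : ℤ) * c' ≤ (q : ℤ) ^ 2 := by exact_mod_cast h2C
  have h := small_arith (by exact_mod_cast hq) hX' (Int.natCast_nonneg k) hc' h1 hiso
  exact_mod_cast h

end Cfsg.Agent.H2.MinU
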