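import Cfsg.Agent.H2.MinU.High
import Cfsg.Agent.H2.MinU.Four.Final
import Cfsg.Agent.H2.MinU.Odd.Five

/-!
The minimal index of `PSU n` over the field with four elements, `n` even at least `6`.
-/

set_option autoImplicit false

namespace Cfsg.Agent.H2.MinU

open Matrix MulAction
open scoped Pointwise

/-- The non-isotropic points of the even-dimensional spaces over the field with four elements. -/
def nip : ℕ → ℕ
  | 0 => 0
  | 1 => 0
  | n + 2 => 2 ^ (2 * n + 1) + 4 * nip n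

lemma nip_succ_succ (n : ℕ) : nip (n + 2) = 2 ^ (2 * n + 1) + 4 * nip n := rfl

lemma nip_closed : ∀ j : ℕ, 6 * nip (2 * j) + 4 ^ j = 16 ^ j := by
  intro j
  induction j with
  | zero => simp [nip]
  | succ j ih =>
    have e : 2 ^ (2 * (2 * j) + 1) = 2 * 16 ^ j := by
      rw [pow_succ, ← mul_assoc, pow_mul, show (2 : ℕ) ^ (2 * 2) = 16 from rfl, mul_comm]
    rw [show 2 * (j + 1) = 2 * j + 2 by ring, nip_succ_succ, e, pow_succ, pow_succ]
    omega

lemma nip_lt_pts : ∀ j : ℕ, nip (2 * j + 2) + 1 ≤ pts 2 (2 * j + 2) := by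
  intro j
  induction j with
  | zero => simp [nip, pts]
  | succ j ih =>
    rw [show 2 * (j + 1) + 2 = (2 * j + 2) + 2 by ring, nip_succ_succ, pts_succ_succ]
    omega

lemma nip_four : nip 4 = 40 := rfl

variable {F : Type*} [Field F] [Fintype F]

local notation "⟪" u ", " v "⟫" => Cfsg.hermForm _ F 2 u v

/-- The orbit of a regular point of `SU 6` contradicts the subgroup `SU 5`. -/
theorem false_of_regular_six (D : Dat F 2) {Ω : Type*} [MulAction (Cfsg.SU (2 + 4) F 2) Ω] [Finite Ω]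
    (hN : Nat.card Ω < 1024) (hfree : ∀ (w : Ω), ∀ g ∈ Qg D 4, g • w = w → g = 1) (ω : Ω) : False := by
  classical
  have hF := D.hF
  have h20 : (2 : F) = 0 := by
    obtain ⟨p, f, hp, hc, -, hpq⟩ := H3.exists_q_eq_pow hF
    have : p = 2 := by
      rcases f with _ | f
      · simp at hpq
      · exact ((Nat.prime_dvd_prime_iff_eq hp Nat.prime_two).mp ⟨p ^ f, by rw [hpq, pow_succ']⟩)
    subst this
    exact CharP.ofNat_eq_zero' F 2 2 dvd_rfl
  let φ : Cfsg.SU (2 + 3) F 2 →* Cfsg.SU (2 + 4) F 2 := inclFirst (a := 2 + 3) (b := 1)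
  let _ : MulAction (Cfsg.SU (2 + 3) F 2) Ω := MulAction.compHom Ω φ
  have hcard := (stabilizer (Cfsg.SU (2 + 3) F 2) ω).index_mul_card
  rw [index_stabilizer] at hcard
  have ho : (orbit (Cfsg.SU (2 + 3) F 2) ω).ncard ≤ Nat.card Ω := Set.ncard_le_card _
  have hpos : 0 < (orbit (Cfsg.SU (2 + 3) F 2) ω).ncard :=
    (Set.ncard_pos (Set.toFinite _)).mpr ⟨ω, mem_orbit_self ω⟩
  obtain ⟨o, ho'⟩ : ∃ o, o = (orbit (Cfsg.SU (2 + 3) F 2) ω).ncard := ⟨_, rfl⟩
  obtain ⟨St, hSt⟩ : ∃ St, St = Nat.card (stabilizer (Cfsg.SU (2 + 3) F 2) ω) := ⟨_, rfl⟩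
  rw [← hSt, ← ho'] at hcard
  rw [← ho'] at ho hpos
  have hG := H3.card_SU hF (n := 2 + 3) (by norm_num)
  rw [H3.card_GU hF, ← hcard] at hG
  simp only [Finset.prod_range_succ, Finset.prod_range_zero, Nat.reduceAdd, Nat.reduceMul,
    Nat.reduceSub, Nat.reduceDiv, one_mul] at hG
  norm_num [parity_simps, -Nat.card_eq_fintype_card] at hG
  have hmul : o * St = 13685760 := by omega
  have heven : 2 ∣ St := by
    by_contra hodd
    have hco : Nat.Coprime 1024 St := by
      rw [show 1024 = 2 ^ 10 from rfl]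
      exact Nat.Coprime.pow_left _ ((Nat.prime_two.coprime_iff_not_dvd).mpr hodd)
    have hd : 1024 ∣ o :=
      hco.dvd_of_dvd_mul_right (by rw [hmul]; norm_num)
    have := Nat.le_of_dvd hpos hd
    omega
  haveI : Fact (Nat.Prime 2) := ⟨Nat.prime_two⟩
  obtain ⟨⟨g, hg⟩, hord⟩ := exists_prime_orderOf_dvd_card' 2 (hSt ▸ heven)
  rw [Subgroup.orderOf_mk] at hord
  have hgg : g * g = 1 := by have := pow_orderOf_eq_one g; rwa [hord, sq] at this
  have hg1 : g ≠ 1 := fun e => by rw [e, orderOf_one] at hord; omega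
  have hneg : ∀ u : Fin (2 + 3) → F, u + u = 0 := fun u => funext fun i => by
    simp only [Pi.add_apply, Pi.zero_apply]; linear_combination (u i) * h20
  have happ : ∀ x : Fin (2 + 4) → F, ∃ (y : Fin (2 + 3) → F) (w : Fin 1 → F),
      x = Fin.append (m := 2 + 3) (n := 1) y w := fun x => ⟨_, _, (Fin.append_castAdd_natAdd (m := 2 + 3) (n := 1) (f := x)).symm⟩
  have hφ : ∀ (y : Fin (2 + 3) → F) (w : Fin 1 → F),
      act (φ g) (Fin.append (m := 2 + 3) (n := 1) y w) = Fin.append (m := 2 + 3) (n := 1) (act g y) w := fun y w => act_inclFirst g y w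
  have hφ1 : φ g ≠ 1 := by
    intro e
    refine hg1 (ext_act fun y => ?_)
    have h := hφ y 0
    rw [e, act_one] at h
    rw [act_one]
    funext i
    have := congrFun h (Fin.castAdd 1 i)
    rw [Fin.append_left, Fin.append_left] at this
    exact this.symm
  have hrank : ∀ a b c, ¬ LinearIndependent F
      ![act (φ g) a + a, act (φ g) b + b, act (φ g) c + c] := by
    intro a b c hli
    let ι : (Fin (2 + 3) → F) →ₗ[F] (Fin (2 + 4) → F) :=
      { toFun := fun y => Fin.append (m := 2 + 3) (n := 1) y (0 : Fin 1 → F)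
        map_add' := fun y z => funext (Fin.addCases (m := 2 + 3) (n := 1) (by simp) (by simp))
        map_smul' := fun c y => funext (Fin.addCases (m := 2 + 3) (n := 1) (by simp) (by simp)) }
    have him : ∀ x, ∃ y, act (φ g) x + x = ι (act g y + y) := by
      intro x
      obtain ⟨y, w, rfl⟩ := happ x
      refine ⟨y, ?_⟩
      rw [hφ]
      refine funext (Fin.addCases (m := 2 + 3) (n := 1) (fun i => ?_) fun i => ?_)
      · show Fin.append (m := 2 + 3) (n := 1) (act g y) w (Fin.castAdd 1 i) + Fin.append (m := 2 + 3) (n := 1) y w (Fin.castAdd 1 i) =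
          Fin.append (m := 2 + 3) (n := 1) (act g y + y) (0 : Fin 1 → F) (Fin.castAdd 1 i)
        simp
      · show Fin.append (m := 2 + 3) (n := 1) (act g y) w (Fin.natAdd 5 i) + Fin.append (m := 2 + 3) (n := 1) y w (Fin.natAdd 5 i) =
          Fin.append (m := 2 + 3) (n := 1) (act g y + y) (0 : Fin 1 → F) (Fin.natAdd 5 i)
        simp only [Fin.append_right, Pi.zero_apply]
        linear_combination (w i) * h20
    choose y hy using him
    have hli' : LinearIndependent F
        ![act g (y a) + y a, act g (y b) + y b, act g (y c) + y c] := by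
      refine LinearIndependent.of_comp ι ?_
      convert hli using 1
      funext i
      fin_cases i <;> exact (hy _).symm
    have hiso : ∀ u v, Cfsg.hermForm (2 + 3) F 2 (act g u + u) (act g v + v) = 0 := by
      intro u v
      have e2 : Cfsg.hermForm (2 + 3) F 2 u (act g v) = Cfsg.hermForm (2 + 3) F 2 (act g u) v := by
        rw [← form_act g u (act g v), ← act_mul g g, hgg, act_one]
      simp only [hadd_l hF (n := 2 + 3), hadd_r hF (n := 2 + 3), form_act g u v, e2]
      linear_combination (Cfsg.hermForm (2 + 3) F 2 u v + Cfsg.hermForm (2 + 3) F 2 (act g u) v) * h20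
    refine no_iso_three hF hli' fun i j => ?_
    fin_cases i <;> fin_cases j <;> exact hiso _ _
  obtain ⟨k, hk⟩ := invol_mem_radical_gen (by norm_num) D h20
    (by rw [← map_mul, hgg, map_one] : φ g * φ g = 1) hφ1 hrank
  have hfix : φ g • ω = ω := hg
  have hfixk : (k⁻¹ * φ g * k) • (k⁻¹ • ω) = k⁻¹ • ω := by
    rw [mul_smul, smul_inv_smul, mul_smul, hfix]
  have := hfree _ _ hk hfixk
  exact hφ1 (by rwa [mul_eq_one_iff_eq_inv, mul_eq_left] at this)

set_option maxHeartbeats 400000 in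
/-- One step of the bound. -/
theorem two_step (D : Dat F 2) {m M : ℕ} (hm : 4 ≤ m) (hmeven : Even m)
    (hM : ∀ H : Subgroup (Cfsg.SU m F 2), H ≠ ⊤ → M ≤ H.index)
    (hMR : pts 2 (2 + m) ≤ M * 2 ^ (m + 1))
    (hMG : 2 ^ (2 + m) ≤ (2 ^ 2 - 1) * M + 1)
    (hBig : ∀ C : AddSubgroup (Fin m → F), C ≠ ⊥ → C ≠ ⊤ →
      4 * nip m ≤ Nat.card (orbit (Cfsg.SU m F 2) C) * Nat.card C)
    (H : Subgroup (Cfsg.SU (2 + m) F 2)) (hH : H ≠ ⊤) : nip (2 + m) ≤ H.index := by
  classical
  have hF := D.hF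
  have hN2 : 2 ≤ H.index := Subgroup.one_lt_index_of_ne_top hH
  by_contra hlt
  push Not at hlt
  set Ω := Cfsg.SU (2 + m) F 2 ⧸ H
  obtain ⟨a, ha⟩ : ∃ a, m = 2 * a + 2 := by
    obtain ⟨b, hb⟩ := hmeven
    exact ⟨b - 1, by omega⟩
  have hnp : nip (2 + m) + 1 ≤ pts 2 (2 + m) := by
    rw [ha, show 2 + (2 * a + 2) = 2 * (a + 1) + 2 by ring]; exact nip_lt_pts _
  have hN : Nat.card Ω < pts 2 (2 + m) := lt_trans hlt (by omega)
  have hN2' : 2 ≤ Nat.card Ω := hN2
  have hNn : Nat.card Ω < nip (2 + m) := hlt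
  have hgeom : ∀ (p : Fin (2 + m) → F) (ω : Ω), ¬ AllFix hF p ω := fun p ω hp => by
    have := geom_bound (D := D) (m := m) (by omega) (M := M) (R := nip (2 + m)) (fun A h0 hiso _ => by
        refine le_card_orbit hF (by omega) hM h0 fun h1 => ?_
        obtain ⟨v, j, -, hv, -⟩ := exists_base (m := m) hF (by omega) (one_pow 2) (Or.inr (by omega))
        exact one_ne_zero (α := F) (hv.symm.trans (hiso v (h1 ▸ AddSubgroup.mem_top v))))
      (by omega) (by
        rw [mul_comm ((2 ^ 2 - 1)) (pts 2 (2 + m)), mul_assoc]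
        exact Nat.mul_le_mul (by omega) (by omega)) hN2' hp
    omega
  have hstr := structure_fix (D := D) (Ω := Ω) (m := m) (by omega) hM hMR hN hN2'
  rw [add_comm 2 m, nip_succ_succ] at hNn
  rcases Nat.eq_zero_or_pos (fixT D m Ω).ncard with hx | hx
  · have hfix : fixT D m Ω = ∅ := (Set.ncard_eq_zero (Set.toFinite _)).mp hx
    have horb : ∀ w : Ω, Nat.card (orbit (Qg D m) w) = 2 ^ (2 * m + 1) ∧ aS m D w = ⊥ ∧ zS m D w = ⊥ := by
      intro w
      obtain ⟨h1, h2, h3⟩ := regular_of_moved (D := D) (m := m) (by omega) hM hMR hN (ω := w)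
        (fun h => by
          have : w ∈ fixT D m Ω := h
          rw [hfix] at this; exact this)
      exact ⟨h3, h2, h1⟩
    have hfree : ∀ (w : Ω), ∀ g ∈ Qg D m, g • w = w → g = 1 := by
      rintro w _ ⟨x, t, hok, rfl⟩ hfixw
      have hx0 : x ∈ aS m D w := ⟨t, hok, hfixw⟩
      rw [(horb w).2.1, AddSubgroup.mem_bot] at hx0
      subst hx0
      have ht : t + t ^ 2 = 0 := by simpa [OkW, hzero_l hF] using hok
      have ht0 : t ∈ zS m D w := ⟨ht, hfixw⟩
      rw [(horb w).2.2, AddSubgroup.mem_bot] at ht0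
      rw [ht0, El_zero]
    obtain ⟨ω₀⟩ : Nonempty Ω := (Nat.card_pos_iff.mp (by omega)).1
    rcases Nat.lt_or_ge m 5 with hm5 | hm5
    · obtain rfl : m = 4 := by omega
      rw [nip_four] at hNn
      exact false_of_regular_six D (Ω := Ω) (by norm_num at hNn ⊢; omega) hfree ω₀
    · rw [hx, zero_add] at hstr
      have htr : ∀ w w' : Ω, ∃ g ∈ Qg D m, g • w = w' := by
        intro w w'
        have : orbit (Qg D m) w = Set.univ := Set.eq_of_subset_of_ncard_le (Set.subset_univ _) (by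
          rw [Set.ncard_univ, ← Nat.card_coe_set_eq, (horb w).1, hstr])
        obtain ⟨g, hg⟩ : w' ∈ orbit (Qg D m) w := this ▸ Set.mem_univ w'
        exact ⟨g.1, g.2, hg⟩
      obtain ⟨b, rfl⟩ : ∃ b, m = 5 + b := ⟨m - 5, by omega⟩
      obtain ⟨c, δ, h1, h2, h3, h4⟩ := exists_scalars_two (F := F) hF
      exact false_of_regular_scalars (D := D) (by omega) (by omega) c δ h1 h2 h3 h4 hfree htr hfix ω₀
  · obtain ⟨w, hw⟩ := (Set.ncard_pos (Set.toFinite _)).mp hx
    have hAt : aS m D w ≠ ⊤ := fun h => hgeom _ _ (allFix_of_aS_top hw h)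
    have hfb := fix_bound (D := D) (m := m) hw
    have hlow : 4 * nip m ≤ (fixT D m Ω).ncard := by
      by_cases hA0 : aS m D w = ⊥
      · rw [hA0, AddSubgroup.card_bot, mul_one] at hfb
        have hk1 : 1 ≤ Nat.card (orbit (Cfsg.SU m F 2) (⊥ : AddSubgroup (Fin m → F))) := by
          have : Finite (AddSubgroup (Fin m → F)) := Finite.of_injective _ SetLike.coe_injective
          have : Nonempty (orbit (Cfsg.SU m F 2) (⊥ : AddSubgroup (Fin m → F))) := ⟨⟨_, mem_orbit_self _⟩⟩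
          exact Nat.card_pos
        refine le_trans ?_ ((Nat.le_mul_of_pos_left _ hk1).trans hfb)
        have h1 := nip_lt_pts a
        have h2 := pts_small (le_refl 2) m (by omega)
        rw [ha] at h2 ⊢
        omega
      obtain ⟨p, f, hp, hc, -, hpq⟩ := H3.exists_q_eq_pow hF
      haveI := Fact.mk hp
      obtain ⟨φ, hφ, -⟩ := exists_functional_at (p := p) (⊥ : AddSubgroup F) (x := (1 : F)) (by simp)
      let ψ : F →+ ZMod p := φ.comp (AddMonoidHom.mk' (fun t : F => t + t ^ 2) fun a b => by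
        rw [qadd hF]; ring)
      have hψa : ∀ t, ψ t = φ (t + t ^ 2) := fun t => rfl
      have hψ : ψ ≠ 0 := fun h => by
        obtain ⟨s, hs⟩ := H3.exists_trace_eq hF (a := (1 : F)) (one_pow 2)
        have := DFunLike.congr_fun h s
        rw [hψa, hs] at this
        exact hφ this
      have hcard := card_annih hF ψ hψ 1 (fun t => by rw [hψa, hψa, qq hF, one_mul, add_comm])
        (aS m D w)
      set C := annih hF ψ (aS m D w) with hC
      have hWc : Nat.card (Fin m → F) = 2 ^ (2 * m) := by simp [hF, pow_mul]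
      have hC0 : C ≠ ⊥ := fun h => by
        rw [h, AddSubgroup.card_bot, one_mul, ← hWc] at hcard
        exact hAt (AddSubgroup.eq_top_of_card_eq _ hcard)
      have hC1 : C ≠ ⊤ := fun h => by
        rw [h, AddSubgroup.card_top, hWc] at hcard
        have h1 : Nat.card (aS m D w) = 1 :=
          Nat.eq_of_mul_eq_mul_left (Nat.pow_pos (by norm_num)) (hcard.trans (mul_one _).symm)
        exact hA0 (AddSubgroup.eq_bot_of_card_eq _ h1)
      have hkC : Nat.card (orbit (Cfsg.SU m F 2) C) ≤ Nat.card (orbit (Cfsg.SU m F 2) (aS m D w)) := by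
        have : Finite (AddSubgroup (Fin m → F)) := Finite.of_injective _ SetLike.coe_injective
        refine Nat.card_le_card_of_surjective
          (fun A => (⟨annih hF ψ A.1, ?_⟩ : orbit (Cfsg.SU m F 2) C)) ?_
        · obtain ⟨g, hg⟩ := A.2
          exact ⟨g, by simp only [← hg, hC, annih_smul]⟩
        · rintro ⟨_, g, rfl⟩
          exact ⟨⟨g • aS m D w, mem_orbit _ _⟩, Subtype.ext (annih_smul hF ψ _ g)⟩
      refine (hBig C hC0 hC1).trans ?_
      refine Nat.le_of_mul_le_mul_right ?_ (Nat.card_pos (α := aS m D w))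
      rw [mul_assoc, hcard]
      exact (Nat.mul_le_mul_right _ hkC).trans hfb
    omega

/-- The translates needed at each step. -/
theorem two_big (D : Dat F 2) {m M : ℕ} (hm : 4 ≤ m) (hmeven : Even m)
    (hM : ∀ H : Subgroup (Cfsg.SU m F 2), H ≠ ⊤ → M ≤ H.index)
    (h4 : nip m ≤ M ∨ m = 4 ∧ 27 ≤ M) (C : AddSubgroup (Fin m → F)) (h0 : C ≠ ⊥) (h1 : C ≠ ⊤) :
    4 * nip m ≤ Nat.card (orbit (Cfsg.SU m F 2) C) * Nat.card C := by
  classical
  have hF := D.hF
  have hk := le_card_orbit hF (by omega) hM h0 h1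
  obtain ⟨p, f, hp, hc, -, hpq⟩ := H3.exists_q_eq_pow hF
  have hp2 : p = 2 := by
    rcases f with _ | f
    · simp at hpq
    · exact ((Nat.prime_dvd_prime_iff_eq hp Nat.prime_two).mp ⟨p ^ f, by rw [hpq, pow_succ']⟩)
  have hd : Nat.card C ∣ Nat.card (Fin m → F) := AddSubgroup.card_addSubgroup_dvd_card C
  rw [show Nat.card (Fin m → F) = 2 ^ (2 * m) by simp [hF, pow_mul]] at hd
  obtain ⟨e, -, he⟩ := (Nat.dvd_prime_pow Nat.prime_two).mp hd
  obtain ⟨v, hv, hv0⟩ : ∃ v ∈ C, v ≠ 0 := by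
    by_contra h; push Not at h; exact h0 (eq_bot_iff.mpr fun v hv => by simp [h v hv])
  have hcov : (orbit (Cfsg.SU m F 2) v).ncard ≤
      Nat.card (orbit (Cfsg.SU m F 2) C) * (Nat.card C - 1) :=
    orbit_le_cover (G := Cfsg.SU m F 2) C hv hv0
  replace hk : M ≤ Nat.card (orbit (Cfsg.SU m F 2) C) := hk
  rcases e with _ | _ | e
  · exact absurd (AddSubgroup.eq_bot_of_card_eq _ he) h0
  · rw [he]
    rw [he, show (2 : ℕ) ^ (0 + 1) - 1 = 1 from rfl, mul_one] at hcov
    obtain ⟨j, rfl⟩ : ∃ j, m = j + 1 := ⟨m - 1, by omega⟩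
    have hlow := orbit_lower hF (k := j) (by omega) hv0
    obtain ⟨a, ha⟩ : ∃ a, j + 1 = 2 * a + 2 := by
      obtain ⟨b, hb⟩ := hmeven
      exact ⟨b - 1, by omega⟩
    have h2 := nip_closed (a + 1)
    rw [show 2 * (a + 1) = j + 1 by omega] at h2
    have e1 : 16 ^ (a + 1) = 4 * (2 ^ j * 2 ^ j) := by
      rw [show (16 : ℕ) = 2 ^ 4 from rfl, ← pow_mul, ← pow_add, show 4 = 2 ^ 2 from rfl, ← pow_add]
      congr 1; omega
    have e2 : 4 ^ (a + 1) = 2 * 2 ^ j := by
      rw [show (4 : ℕ) = 2 ^ 2 from rfl, ← pow_mul, ← pow_succ']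
      congr 1; omega
    have e3 : 8 ≤ 2 ^ j := le_trans (by norm_num) (Nat.pow_le_pow_right (by norm_num) (by omega : 3 ≤ j))
    have e4 : 8 * 2 ^ j ≤ 2 ^ j * 2 ^ j := Nat.mul_le_mul_right _ e3
    rw [mul_assoc] at hlow
    rw [e1, e2] at h2
    omega
  rcases h4 with h4 | ⟨rfl, h27⟩
  · rw [he, mul_comm 4]
    refine Nat.mul_le_mul (h4.trans hk) ?_
    rw [show e + 1 + 1 = e + 2 from rfl, pow_add]
    exact Nat.le_mul_of_pos_left _ (Nat.pow_pos (by norm_num))
  rw [nip_four, he]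
  rcases e with _ | e
  · rw [he] at hcov
    norm_num [-Nat.card_eq_fintype_card, -Nat.card_coe_set_eq] at hcov ⊢
    have h120 : 120 ≤ (orbit (Cfsg.SU 4 F 2) v).ncard := by
      by_cases hv' : ⟪v, v⟫ = 0
      · rw [card_orbit_iso hF (by norm_num) hv0 hv', pts_four]; norm_num
      · rw [card_orbit_noniso hF (k := 3) (by norm_num) hv', if_neg (by decide)]; norm_num
    omega
  · have : 8 ≤ 2 ^ (e + 1 + 1 + 1) := by
      rw [show e + 1 + 1 + 1 = e + 3 from rfl, pow_add]
      exact Nat.le_mul_of_pos_left _ (Nat.pow_pos (by norm_num))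
    exact le_trans (by norm_num) (Nat.mul_le_mul (h27.trans hk) this)

/-- The lower bound over the field with four elements. -/
theorem su_two_bound (D : Dat F 2) : ∀ j : ℕ,
    ∀ H : Subgroup (Cfsg.SU (2 + (4 + 2 * j)) F 2), H ≠ ⊤ → nip (2 + (4 + 2 * j)) ≤ H.index := by
  intro j
  induction j with
  | zero =>
    have hM : ∀ H : Subgroup (Cfsg.SU 4 F 2), H ≠ ⊤ → L4 2 ≤ H.index := fun H hH =>
      four_bound D (Ω := Cfsg.SU (2 + 2) F 2 ⧸ H) (Subgroup.one_lt_index_of_ne_top hH)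
    refine two_step D (m := 4) le_rfl (by decide) hM ?_ (by decide) (two_big D le_rfl (by decide) hM
      (Or.inr ⟨rfl, by decide⟩))
    rw [show pts 2 (2 + 4) = 1 + 2 ^ 2 * pts 2 4 + 2 ^ 9 from pts_succ_succ 2 4, pts_four, L4]
    norm_num
  | succ j ih =>
    rw [show 4 + 2 * (j + 1) = 2 + (4 + 2 * j) by ring]
    have heven : Even (2 + (4 + 2 * j)) := ⟨3 + j, by ring⟩
    have hlow : 2 ^ (2 * (4 + 2 * j) + 1) ≤ nip (2 + (4 + 2 * j)) := by
      rw [add_comm 2, nip_succ_succ]; omega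
    refine two_step D (m := 2 + (4 + 2 * j)) (by omega) heven ih ?_ ?_
      (two_big D (by omega) heven ih (Or.inl le_rfl))
    · refine le_trans ?_ (Nat.mul_le_mul_right _ hlow)
      rw [← pow_add, add_comm 2 (2 + (4 + 2 * j)), pts_succ_succ]
      have h := pts_small (le_refl 2) (2 + (4 + 2 * j)) (by omega)
      have h1 : 2 ^ (2 * (2 + (4 + 2 * j)) + 1) * 2 ≤
          2 ^ (2 * (4 + 2 * j) + 1 + (2 + (4 + 2 * j) + 1)) := by
        rw [← pow_succ]; exact Nat.pow_le_pow_right (by norm_num) (by omega)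
      have h2 : 2 ^ (2 * (2 + (4 + 2 * j))) ≤ 2 ^ (2 * (2 + (4 + 2 * j)) + 1) :=
        Nat.pow_le_pow_right (by norm_num) (by omega)
      omega
    · refine le_trans ?_ (Nat.le_succ _)
      refine le_trans ?_ (Nat.mul_le_mul_left _ hlow)
      refine le_trans ?_ (Nat.le_mul_of_pos_left _ (by norm_num))
      exact Nat.pow_le_pow_right (by norm_num) (by omega)

/-- The stabiliser of a non-isotropic point. -/
def nst (F : Type*) [Field F] (n : ℕ) (v : Fin n → F) : Subgroup (Cfsg.SU n F 2) where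
  carrier := {g | ∃ c : F, c ≠ 0 ∧ act g v = c • v}
  one_mem' := ⟨1, one_ne_zero, by rw [act_one, one_smul]⟩
  mul_mem' := by
    rintro g h ⟨a, ha0, ha⟩ ⟨b, hb0, hb⟩
    exact ⟨b * a, mul_ne_zero hb0 ha0, by rw [act_mul, hb, act_smul, ha, smul_smul]⟩
  inv_mem' := by
    rintro g ⟨a, ha0, ha⟩
    refine ⟨a⁻¹, inv_ne_zero ha0, ?_⟩
    apply act_injective g
    rw [act_act_inv, act_smul, ha, smul_smul, inv_mul_cancel₀ ha0, one_smul]

/-- The index of the stabiliser of a non-isotropic point. -/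
theorem index_nst (hF : Fintype.card F = 2 ^ 2) (k : ℕ) (hk : Odd k) :
    3 * (nst F (k + 1) (Pi.single 0 1)).index = 2 ^ k * (2 ^ (k + 1) - 1) := by
  classical
  set v : Fin (k + 1) → F := Pi.single 0 1 with hv
  have hvv : ⟪v, v⟫ = 1 := by simp [hv, Cfsg.hermForm, Pi.single_apply]
  have hk1 : 1 ≤ k := hk.pos
  have horb := card_orbit_noniso hF hk1 (v := v) (by rw [hvv]; exact one_ne_zero)
  rw [if_neg (by rwa [Nat.not_even_iff_odd]), ← index_stabilizer] at horb
  have hle : stabilizer (Cfsg.SU (k + 1) F 2) v ≤ nst F (k + 1) v := fun g hg =>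
    ⟨1, one_ne_zero, by rw [one_smul]; exact mem_stabilizer_iff.mp hg⟩
  rw [← horb, ← Subgroup.relIndex_mul_index hle]
  congr 1
  have hmem : ∀ g : nst F (k + 1) v, act g.1 v = ⟪act g.1 v, v⟫ • v := fun g => by
    obtain ⟨c, -, hc⟩ := g.2
    rw [hc, hsmul_l hF, hvv, mul_one]
  have hv0 : v ≠ 0 := fun e => one_ne_zero (α := F) (by rw [← hvv, e, hzero_l hF])
  let χ : nst F (k + 1) v →* Fˣ :=
    { toFun := fun g => Units.mk0 ⟪act g.1 v, v⟫ fun h => act_ne_zero g.1 hv0 (by rw [hmem g, h, zero_smul])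
      map_one' := Units.ext (by show ⟪act (1 : nst F (k + 1) v).1 v, v⟫ = 1; rw [OneMemClass.coe_one, act_one, hvv])
      map_mul' := fun g h => Units.ext (by
        show ⟪act (g.1 * h.1) v, v⟫ = ⟪act g.1 v, v⟫ * ⟪act h.1 v, v⟫
        rw [act_mul, hmem h, act_smul, hsmul_l hF, hsmul_l hF, hvv, mul_one, mul_comm]) }
  have hker : χ.ker = (stabilizer (Cfsg.SU (k + 1) F 2) v).subgroupOf (nst F (k + 1) v) := by
    ext g
    rw [MonoidHom.mem_ker, Subgroup.mem_subgroupOf, mem_stabilizer_iff, ← Units.val_inj, Units.val_one]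
    show ⟪act g.1 v, v⟫ = 1 ↔ act g.1 v = v
    exact ⟨fun h => by rw [hmem g, h, one_smul], fun h => by rw [h, hvv]⟩
  have hsurj : χ.range = ⊤ := by
    refine eq_top_iff.mpr fun c _ => ?_
    set d : Fin (k + 1) → F :=
      Function.update (Function.update (fun _ => 1) 0 (c : F)) 1 (c⁻¹ : Fˣ) with hdd
    have h01 : (0 : Fin (k + 1)) ≠ 1 := by
      simp [Fin.ext_iff, Fin.val_one', Nat.mod_eq_of_lt (by omega : 1 < k + 1)]
    have hd : ∀ i, d i ^ 3 = 1 := by
      have hpow : ∀ u : Fˣ, (u : F) ^ 3 = 1 := fun u => by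
        have := FiniteField.pow_card_sub_one_eq_one (u : F) u.ne_zero
        rwa [hF] at this
      intro i
      by_cases h1 : i = 1
      · subst h1; rw [hdd, Function.update_self]; exact hpow _
      · rw [hdd, Function.update_of_ne h1]
        by_cases h0 : i = 0
        · subst h0; rw [Function.update_self]; exact hpow _
        · rw [Function.update_of_ne h0, one_pow]
    have hdet : (Matrix.diagonal d).det = 1 := by
      rw [Matrix.det_diagonal, hdd, Finset.prod_update_of_mem (Finset.mem_univ _),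
        Finset.prod_update_of_mem (by simp [h01]), Finset.prod_const_one, mul_one, Units.val_inv_eq_inv_val,
        inv_mul_cancel₀ c.ne_zero]
    let g : Cfsg.SU (k + 1) F 2 := ⟨⟨Matrix.diagonal d, hdet⟩, H3.mem_SU_iff.2 fun x y => by
      show ⟪Matrix.diagonal d *ᵥ x, Matrix.diagonal d *ᵥ y⟫ = _
      simp only [Cfsg.hermForm, Matrix.mulVec_diagonal]
      refine Finset.sum_congr rfl fun i _ => ?_
      linear_combination (x i * y i ^ 2) * hd i⟩
    have hgv : act g v = (c : F) • v := by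
      show Matrix.diagonal d *ᵥ v = _
      ext i
      rw [Matrix.mulVec_diagonal]
      by_cases h0 : i = 0
      · subst h0; rw [hdd, Function.update_of_ne h01, Function.update_self]; simp [hv]
      · simp [hv, h0]
    refine ⟨⟨g, c, c.ne_zero, hgv⟩, Units.ext ?_⟩
    show ⟪act g v, v⟫ = (c : F)
    rw [hgv, hsmul_l hF, hvv, mul_one]
  show 3 = ((stabilizer (Cfsg.SU (k + 1) F 2) v).subgroupOf (nst F (k + 1) v)).index
  rw [← hker, Subgroup.index_ker, hsurj, Subgroup.card_top, Nat.card_units, Nat.card_eq_fintype_card, hF]; rfl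

/-- The minimal index of `PSU n` over the field with four elements, `n` even at least `6`. -/
theorem psu_two_min (hF : Fintype.card F = 2 ^ 2) (n : ℕ) (hn : 6 ≤ n) (heven : Even n) :
    (∀ H : Subgroup (Cfsg.PSU n F 2), H ≠ ⊤ → 2 ^ (n - 1) * (2 ^ n - 1) / 3 ≤ H.index) ∧
      ∃ H : Subgroup (Cfsg.PSU n F 2), H.index = 2 ^ (n - 1) * (2 ^ n - 1) / 3 := by
  obtain ⟨D⟩ := exists_dat hF
  obtain ⟨j, rfl⟩ : ∃ j, n = 2 + (4 + 2 * j) := by
    obtain ⟨a, rfl⟩ := heven
    exact ⟨a - 3, by omega⟩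
  have hcl := nip_closed (3 + j)
  rw [show 2 * (3 + j) = 2 + (4 + 2 * j) by ring] at hcl
  obtain ⟨X, hX⟩ : ∃ X, X = 2 ^ (5 + 2 * j) := ⟨_, rfl⟩
  have e16 : 16 ^ (3 + j) = 4 * (X * X) := by
    rw [hX, show (16 : ℕ) = 2 ^ 4 from rfl, ← pow_mul, show 4 = 2 ^ 2 from rfl, ← pow_add, ← pow_add]
    congr 1; omega
  have e4 : 4 ^ (3 + j) = 2 * X := by
    rw [hX, show (4 : ℕ) = 2 ^ 2 from rfl, ← pow_mul, ← pow_succ']
    congr 1; omega
  have e2 : 2 ^ (2 + (4 + 2 * j)) = 2 * X := by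
    rw [hX, ← pow_succ']; congr 1; omega
  have hidx := index_nst hF (5 + 2 * j) ⟨2 + j, by ring⟩
  rw [← hX] at hidx
  rw [show 2 + (4 + 2 * j) - 1 = 5 + 2 * j by omega, ← hX, e2]
  rw [show 2 ^ (5 + 2 * j + 1) = 2 * X by rw [hX, ← pow_succ']] at hidx
  have hX1 : 1 ≤ X := hX ▸ Nat.one_le_pow _ _ (by norm_num)
  have hm2 : X * (2 * X - 1) + X = 2 * (X * X) := by
    zify [show 1 ≤ 2 * X by omega]; ring
  have hR : X * (2 * X - 1) / 3 = nip (2 + (4 + 2 * j)) := by omega
  rw [hR]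
  refine psu_min _ (su_two_bound D j) ?_
  have e : 2 + (4 + 2 * j) = 5 + 2 * j + 1 := by ring
  rw [e] at hcl hR ⊢
  refine ⟨nst F (5 + 2 * j + 1) (Pi.single 0 1), ?_, by omega⟩
  intro g hg
  obtain ⟨l, hl⟩ := (H3.mem_center_SU_iff hF (by omega) g).mp hg
  refine ⟨l, fun h => ?_, hl _⟩
  refine act_ne_zero g (x := (Pi.single 0 1 : Fin (5 + 2 * j + 1) → F)) ?_ ?_
  · intro e'
    have := congrFun e' 0
    simp at this
  · show (g.1 : Matrix (Fin (5 + 2 * j + 1)) (Fin (5 + 2 * j + 1)) F) *ᵥ _ = 0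
    rw [hl, h, zero_smul]

end Cfsg.Agent.H2.MinU
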